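import Cfsg.Agent.Lib.ChevGen2.Design
import Cfsg.Agent.Lib.Chev.TwSCBN

/-!
# Two generators for twisted groups: pairs of commuting root elements

Root elements are propagated through fixed monomial elements and commutators with fixed root elements.
-/

namespace Cfsg.Agent.Lib.Chev.TwoGen

open Cfsg.Lie Matrix

variable {F : Type*} [Field F]
variable {T : Tabs} {X : Extra} {R : RootTab} {D : ChevalleyDatum} {hF : Full T X R D}

/-- The data of a twist. -/
structure TwD (τ : Tw hF F) (f : F ≃+* F) (ρ' : ℕ → ℕ) (gg : ℕ → ℤ) : Prop where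
  s_x : ∀ r < D.nroots, ∀ t : F, τ.s (hF.c.xG r t) = hF.c.xG (ρ' r) ((gg r : F) * f t)
  ρ_lt : ∀ r < D.nroots, ρ' r < D.nroots
  unit : ∀ r < D.nroots, gg r = 1 ∨ gg r = -1
  ff : ∀ t, f (f t) = t

theorem f_int (f : F ≃+* F) (c : ℤ) : f (c : F) = c := map_intCast f c

theorem f_sq_one {f : F ≃+* F} {e : F} (he : e * e = 1) : f e = e := by
  rcases mul_self_eq_one_iff.1 he with rfl | rfl <;> simp

/-- The fixed elements of a root subgroup are in `H`. -/
def Sat1 (hC : Checks T X D) (f : F ≃+* F) (H : Subgroup (GL D.Idx F)) (r : ℕ) : Prop :=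
  ∀ t : F, f t = t → hC.xG r t ∈ H

/-- The class element. -/
noncomputable def YY (hC : Checks T X D) (f : F ≃+* F) (ρ' : ℕ → ℕ) (gg : ℕ → ℤ) (r : ℕ) (A : F) : GL D.Idx F :=
  hC.xG r A * hC.xG (ρ' r) ((gg r : F) * f A)

/-- All the class elements are in `H`. -/
def Sat2 (hC : Checks T X D) (f : F ≃+* F) (ρ' : ℕ → ℕ) (gg : ℕ → ℤ) (H : Subgroup (GL D.Idx F)) (r : ℕ) : Prop :=
  ∀ A : F, YY hC f ρ' gg r A ∈ H

variable {τ : Tw hF F} {f : F ≃+* F} {ρ' : ℕ → ℕ} {gg : ℕ → ℤ} {H : Subgroup (GL D.Idx F)}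

theorem sat1_nW {w : List ℕ} (hw : ∀ i ∈ w, i < D.rank) (hb : nW hF w ∈ H) {s : ℕ} (hs : s < D.nroots)
    (h : Sat1 hF.c f H s) : Sat1 hF.c f H (wAct X w s) := by
  obtain ⟨-, e, he, hc⟩ := nW_conj hF (F := F) hw hs
  intro t ht
  have h1 : f (e * t) = e * t := by rw [map_mul, f_sq_one he, ht]
  have h2 := H.mul_mem (H.mul_mem hb (h _ h1)) (H.inv_mem hb)
  rw [hc, ← mul_assoc, he, one_mul] at h2
  exact h2

theorem sat1_comm {r s k : ℕ} {c : ℤ} (hr : r < D.nroots) (hs : s < D.nroots) (h1 : s ≠ r) (h2 : s ≠ D.neg r)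
    (h : D.commTerms r s = [(k, c, 1, 1)]) (hc : c = 1 ∨ c = -1) (h3 : Sat1 hF.c f H r) (h4 : Sat1 hF.c f H s) :
    Sat1 hF.c f H k := by
  intro v hv
  have h5 := hF.xG_comm hr hs h1 h2 (-1 : F) ((c : F) * v)
  have h6 : hF.c.wordG (D.commWord F r s (-1) ((c : F) * v)) = hF.c.xG k v := by
    rw [ChevalleyDatum.commWord, h]
    have h7 : (c : F) * (c : F) = 1 := by
      rcases hc with rfl | rfl <;> simp
    simp only [List.map_cons, List.map_nil, Checks.wordG_cons, Checks.wordG_nil, mul_one]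
    congr 1
    simp only [pow_one, neg_neg, mul_one]
    rw [← mul_assoc, h7, one_mul]
  rw [h6] at h5
  have h8 : hF.c.xG k v = (hF.c.xG r (-1 : F) * hF.c.xG s ((c : F) * v))⁻¹ * (hF.c.xG s ((c : F) * v) * hF.c.xG r (-1 : F)) := by
    rw [h5]
    group
  rw [h8]
  have h9 : hF.c.xG r (-1 : F) ∈ H := h3 _ (by simp)
  have h10 : hF.c.xG s ((c : F) * v) ∈ H := h4 _ (by rw [map_mul, f_int, hv])
  exact H.mul_mem (H.inv_mem (H.mul_mem h9 h10)) (H.mul_mem h10 h9)

/-- Running a certificate, abstractly. -/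
theorem addC_sound_P (P : ℕ → Prop) {ws : List (List ℕ)}
    (hw : ∀ w ∈ ws, ∀ s < D.nroots, P s → wAct X w s < D.nroots ∧ P (wAct X w s))
    (hm : ∀ r s k c, r < D.nroots → s < D.nroots → s ≠ r → s ≠ D.neg r → D.commTerms r s = [(k, c, 1, 1)] →
      (c = 1 ∨ c = -1) → P r → P s → k < D.nroots ∧ P k)
    {known : List ℕ} (hk : ∀ r ∈ known, r < D.nroots ∧ P r) (e : ℕ × ℕ) :
    ∀ r ∈ addC D X ws known e, r < D.nroots ∧ P r := by
  unfold addC
  cases h1 : memB e.1 known with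
  | false => simpa using hk
  | true =>
    have h1' := hk _ (mem_of_memB h1)
    simp only [cond_true]
    cases h2 : Nat.blt e.2 D.nroots with
    | false =>
      simp only [cond_false]
      intro r hr
      rcases List.mem_cons.1 hr with rfl | hr
      · by_cases h0 : e.2 - D.nroots < ws.length
        · have h3 : ws.getD (e.2 - D.nroots) [] ∈ ws := by
            rw [List.getD_eq_getElem _ _ h0]
            exact List.getElem_mem h0
          exact hw _ h3 _ h1'.1 h1'.2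
        · rw [List.getD_eq_default _ _ (not_lt.1 h0)]
          exact h1'
      · exact hk r hr
    | true =>
      simp only [cond_true]
      cases h3 : (memB e.2 known && !Nat.beq e.2 e.1 && !Nat.beq e.2 (D.neg e.1)) with
      | false => simpa using hk
      | true =>
        simp only [cond_true]
        simp only [Bool.and_eq_true, Bool.not_eq_true'] at h3
        obtain ⟨⟨h4, h5⟩, h6⟩ := h3
        have h4' := hk _ (mem_of_memB h4)
        have h7 : e.2 ≠ e.1 := fun h => by simp [h] at h5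
        have h8 : e.2 ≠ D.neg e.1 := fun h => by simp [h] at h6
        cases h9 : soleTerm (D.commTerms e.1 e.2) with
        | none => simpa using hk
        | some k =>
          obtain ⟨c, hc, hc2⟩ := soleTerm_spec h9
          intro r hr
          rcases List.mem_cons.1 hr with rfl | hr
          · exact hm _ _ _ _ h1'.1 h4'.1 h7 h8 hc hc2 h1'.2 h4'.2
          · exact hk r hr

theorem runC_sound_P (P : ℕ → Prop) {ws : List (List ℕ)}
    (hw : ∀ w ∈ ws, ∀ s < D.nroots, P s → wAct X w s < D.nroots ∧ P (wAct X w s))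
    (hm : ∀ r s k c, r < D.nroots → s < D.nroots → s ≠ r → s ≠ D.neg r → D.commTerms r s = [(k, c, 1, 1)] →
      (c = 1 ∨ c = -1) → P r → P s → k < D.nroots ∧ P k)
    (es : List (ℕ × ℕ)) {known : List ℕ} (hk : ∀ r ∈ known, r < D.nroots ∧ P r) :
    ∀ r ∈ runC D X ws known es, r < D.nroots ∧ P r := by
  induction es generalizing known with
  | nil => exact hk
  | cons e es ih => exact ih (addC_sound_P P hw hm hk e)

/-- The long-root certificate. -/
theorem runC_sat1 {ws : List (List ℕ)} (hw : ∀ w ∈ ws, (∀ i ∈ w, i < D.rank) ∧ nW hF w ∈ H)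
    (es : List (ℕ × ℕ)) {known : List ℕ} (hk : ∀ r ∈ known, r < D.nroots ∧ Sat1 hF.c f H r) :
    ∀ r ∈ runC D X ws known es, r < D.nroots ∧ Sat1 hF.c f H r := by
  refine runC_sound_P _ ?_ ?_ es hk
  · intro w hw' s hs h
    exact ⟨wAct_lt hF (hw w hw').1 hs, sat1_nW (hw w hw').1 (hw w hw').2 hs h⟩
  · intro r s k c hr hs h1 h2 h3 h4 h5 h6
    refine ⟨?_, sat1_comm (hF := hF) hr hs h1 h2 h3 h4 h5 h6⟩
    have h10 := hF.commTerms_spec hr hs h1 h2 (c := (k, c, 1, 1)) (by rw [h3]; exact List.mem_singleton.2 rfl)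
    exact h10.1

/-! ### Conjugation of class elements -/

theorem YY_conj_nW (hT : TwD τ f ρ' gg) {w : List ℕ} (hw : ∀ i ∈ w, i < D.rank)
    (hbf : τ.s (nW hF (F := F) w) = nW hF w) {s : ℕ} (hs : s < D.nroots) :
    ∃ e : F, e * e = 1 ∧ ∀ A : F, nW hF w * YY hF.c f ρ' gg s A * (nW hF w)⁻¹ =
      YY hF.c f ρ' gg (wAct X w s) (e * A) := by
  have hsb := hT.ρ_lt s hs
  obtain ⟨h1, e, he, hc⟩ := nW_conj hF (F := F) hw hs
  obtain ⟨h1', e', he', hc'⟩ := nW_conj hF (F := F) hw hsb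
  have hb := nW_mem_group hF (F := F) hw
  have hx := hF.c.xG_mem_group hs (1 : F)
  have h2 : τ.s (nW hF w * hF.c.xG s (1 : F) * (nW hF w)⁻¹) = nW hF w * τ.s (hF.c.xG s (1 : F)) * (nW hF w)⁻¹ := by
    rw [τ.s_mul (Subgroup.mul_mem _ hb hx) (Subgroup.inv_mem _ hb), τ.s_mul hb hx, τ.s_inv hb, hbf]
  rw [hc, hT.s_x _ h1, hT.s_x _ hs, hc'] at h2
  have hfe : f e = e := f_sq_one he
  rw [map_one, mul_one, mul_one, hfe] at h2
  have hg1 : ((gg (wAct X w s) : ℤ) : F) * ((gg (wAct X w s) : ℤ) : F) = 1 := by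
    rcases hT.unit _ h1 with h | h <;> rw [h] <;> simp
  have hne : ((gg (wAct X w s) : ℤ) : F) * e ≠ 0 := by
    intro h0
    have : ((gg (wAct X w s) : ℤ) : F) * e * (((gg (wAct X w s) : ℤ) : F) * e) = 1 := by
      calc ((gg (wAct X w s) : ℤ) : F) * e * (((gg (wAct X w s) : ℤ) : F) * e)
          = (((gg (wAct X w s) : ℤ) : F) * ((gg (wAct X w s) : ℤ) : F)) * (e * e) := by ring
        _ = 1 := by rw [hg1, he, one_mul]
    rw [h0, zero_mul] at this
    exact zero_ne_one this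
  have h3 := hF.xG_root_inj (hT.ρ_lt _ h1) h1' hne h2
  rw [h3] at h2
  have h4 := hF.xG_param_inj h1' h2
  refine ⟨e, he, fun A => ?_⟩
  have h5 : nW hF w * YY hF.c f ρ' gg s A * (nW hF w)⁻¹ =
      (nW hF w * hF.c.xG s A * (nW hF w)⁻¹) * (nW hF w * hF.c.xG (ρ' s) ((gg s : F) * f A) * (nW hF w)⁻¹) := by
    unfold YY
    group
  rw [h5, hc, hc']
  unfold YY
  rw [← h3, map_mul, hfe]
  congr 2
  rw [← mul_assoc, ← mul_assoc, h4]

theorem sat2_nW (hT : TwD τ f ρ' gg) {w : List ℕ} (hw : ∀ i ∈ w, i < D.rank) (hb : nW hF w ∈ H)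
    (hbf : τ.s (nW hF (F := F) w) = nW hF w) {s : ℕ} (hs : s < D.nroots)
    (h : Sat2 hF.c f ρ' gg H s) : Sat2 hF.c f ρ' gg H (wAct X w s) := by
  obtain ⟨e, he, hc⟩ := YY_conj_nW hT hw hbf hs
  intro A
  have h2 := H.mul_mem (H.mul_mem hb (h (e * A))) (H.inv_mem hb)
  rw [hc, ← mul_assoc, he, one_mul] at h2
  exact h2

/-- The commutator of a class element with a fixed root element: the first form. -/
theorem comm_ls (hT : TwD τ f ρ' gg) {l r k m : ℕ} {c c' d : ℤ} (hl : l < D.nroots) (hr : r < D.nroots)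
    (n1 : r ≠ l) (n2 : r ≠ D.neg l) (n3 : ρ' r ≠ l) (n4 : ρ' r ≠ D.neg l)
    (h1 : D.commTerms l r = [(k, c, 1, 1)]) (h2 : D.commTerms l (ρ' r) = [(ρ' k, c', 1, 1)])
    (n5 : k ≠ ρ' r) (n6 : k ≠ D.neg (ρ' r))
    (h3 : D.commTerms (ρ' r) k = [(m, d, 1, 1)])
    (n7 : ρ' k ≠ m) (n8 : ρ' k ≠ D.neg m) (h4 : D.commTerms m (ρ' k) = [])
    (hs : (c' * gg r : ℤ) = gg k * c) (t A : F) (ht : f t = t) :
    (YY hF.c f ρ' gg r A)⁻¹ * hF.c.xG l t * YY hF.c f ρ' gg r A * (hF.c.xG l t)⁻¹ =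
      YY hF.c f ρ' gg k ((c : F) * t * A) * hF.c.xG m (-(d : F) * ((gg r : F) * f A) * ((c : F) * t * A)) := by
  have hk : k < D.nroots := (hF.commTerms_spec hl hr n1 n2 (c := (k, c, 1, 1)) (by rw [h1]; exact List.mem_singleton.2 rfl)).1
  have hrb := hT.ρ_lt r hr
  have hkb := hT.ρ_lt k hk
  have hm : m < D.nroots := (hF.commTerms_spec hrb hk n5 n6 (c := (m, d, 1, 1)) (by rw [h3]; exact List.mem_singleton.2 rfl)).1
  set B : F := (gg r : F) * f A with hB
  -- conjugates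
  have e1 : hF.c.xG l t * hF.c.xG r A * (hF.c.xG l t)⁻¹ = hF.c.xG r A * hF.c.xG k ((c : F) * t * A) := by
    rw [hF.xG_conj hl hr n1 n2, ChevalleyDatum.commWord, h1]
    simp [Checks.wordG_cons, Checks.wordG_nil]
  have e2 : hF.c.xG l t * hF.c.xG (ρ' r) B * (hF.c.xG l t)⁻¹ = hF.c.xG (ρ' r) B * hF.c.xG (ρ' k) ((c' : F) * t * B) := by
    rw [hF.xG_conj hl hrb n3 n4, ChevalleyDatum.commWord, h2]
    simp [Checks.wordG_cons, Checks.wordG_nil]
  have e3 : ∀ v : F, hF.c.xG (ρ' r) (-B) * hF.c.xG k v * (hF.c.xG (ρ' r) (-B))⁻¹ = hF.c.xG k v * hF.c.xG m (-(d : F) * B * v) := by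
    intro v
    rw [hF.xG_conj hrb hk n5 n6, ChevalleyDatum.commWord, h3]
    simp [Checks.wordG_cons, Checks.wordG_nil]
  have hcomm : ∀ u v : F, Commute (hF.c.xG m u) (hF.c.xG (ρ' k) v) :=
    fun u v => commute_of_nil hF hm hkb n7 n8 h4 u v
  have e4 : ((c' : F) * t * B) = (gg k : F) * f ((c : F) * t * A) := by
    rw [map_mul, map_mul, f_int, ht, hB]
    have : ((c' : F) * (gg r : F)) = (gg k : F) * (c : F) := by exact_mod_cast congrArg (fun z : ℤ => (z : F)) hs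
    linear_combination t * f A * this
  set X1 := hF.c.xG l t with hX1
  set R1 := hF.c.xG r A with hR1
  set R2 := hF.c.xG (ρ' r) B with hR2
  set P := hF.c.xG k ((c : F) * t * A) with hP
  set Q := hF.c.xG (ρ' k) ((c' : F) * t * B) with hQ
  set M := hF.c.xG m (-(d : F) * B * ((c : F) * t * A)) with hM
  have e5 : R2⁻¹ * P * R2 = P * M := by
    have h5 := e3 ((c : F) * t * A)
    have h6 : hF.c.xG (ρ' r) (-B) = R2⁻¹ := (hF.c.xG_inv (ρ' r) B).symm
    rw [h6, inv_inv] at h5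
    exact h5
  have e6 : YY hF.c f ρ' gg r A = R1 * R2 := rfl
  have e7 : YY hF.c f ρ' gg k ((c : F) * t * A) = P * Q := by
    unfold YY
    rw [← e4]
  have e8 : X1 * (R1 * R2) * X1⁻¹ = (R1 * P) * (R2 * Q) := by
    rw [← e1, ← e2]
    group
  have e9 : (R1 * R2)⁻¹ * X1 * (R1 * R2) * X1⁻¹ = (R1 * R2)⁻¹ * (X1 * (R1 * R2) * X1⁻¹) := by group
  rw [e6, e7, e9, e8]
  have e10 : (R1 * R2)⁻¹ * (R1 * P * (R2 * Q)) = R2⁻¹ * P * R2 * Q := by group
  rw [e10, e5]
  have hMQ : Commute M Q := hcomm _ _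
  rw [mul_assoc P M Q, hMQ.eq, mul_assoc]

end Cfsg.Agent.Lib.Chev.TwoGen
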