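import Cfsg.Agent.Lib.ChevGen3.Base

/-!
# Two generators for twisted groups: certificates for pairs of commuting root elements
-/

namespace Cfsg.Agent.Lib.Chev.TwoGen

open Cfsg.Lie Matrix

variable {F : Type*} [Field F]
variable {T : Tabs} {X : Extra} {R : RootTab} {D : ChevalleyDatum} {hF : Full T X R D}
variable {τ : Tw hF F} {f : F ≃+* F} {ρ' : ℕ → ℕ} {gg : ℕ → ℤ} {H : Subgroup (GL D.Idx F)}

/-- The only term of a commutator of weights `(1, 1)`. -/
def sole1 : List (ℕ × ℤ × ℕ × ℕ) → Option (ℕ × ℤ)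
  | [(k, c, i, j)] => if i = 1 ∧ j = 1 then some (k, c) else none
  | _ => none

theorem sole1_spec {L : List (ℕ × ℤ × ℕ × ℕ)} {k : ℕ} {c : ℤ} (h : sole1 L = some (k, c)) :
    L = [(k, c, 1, 1)] := by
  match L, h with
  | [(k', c', i, j)], h =>
    simp only [sole1] at h
    split_ifs at h with h1
    obtain ⟨rfl, rfl⟩ := h1
    simp only [Option.some.injEq, Prod.mk.injEq] at h
    obtain ⟨rfl, rfl⟩ := h
    rfl

/-- The conditions of a step of a certificate for a class element. -/
noncomputable def lsCond (D : ChevalleyDatum) (ρ' : ℕ → ℕ) (gg : ℕ → ℤ) (longs : List ℕ) (l r k : ℕ) (c c' : ℤ)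
    (k' m : ℕ) : Bool :=
  Nat.beq k' (ρ' k) && ((decide (c = 1) || decide (c = -1)) && (decide (c' * gg r = gg k * c) &&
    (memB l longs && (memB m longs && ((D.commTerms m (ρ' k)).isEmpty &&
    (!Nat.beq r l && (!Nat.beq r (D.neg l) && (!Nat.beq (ρ' r) l && (!Nat.beq (ρ' r) (D.neg l) &&
    (!Nat.beq k (ρ' r) && (!Nat.beq k (D.neg (ρ' r)) && (!Nat.beq (ρ' k) m && !Nat.beq (ρ' k) (D.neg m)))))))))))))

/-- A step of a certificate for a class element. -/
noncomputable def lsK (D : ChevalleyDatum) (ρ' : ℕ → ℕ) (gg : ℕ → ℤ) (longs : List ℕ) (l r : ℕ) : Option ℕ :=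
  match sole1 (D.commTerms l r), sole1 (D.commTerms l (ρ' r)) with
  | some (k, c), some (k', c') =>
    match sole1 (D.commTerms (ρ' r) k) with
    | some (m, _) => bif lsCond D ρ' gg longs l r k c c' k' m then some k else none
    | none => none
  | _, _ => none

theorem beq_ne {a b : ℕ} (h : (!Nat.beq a b) = true) : a ≠ b := by
  rintro rfl
  simp at h

theorem sat2_ls (hT : TwD τ f ρ' gg) {longs : List ℕ} (hl : ∀ r ∈ longs, r < D.nroots ∧ Sat1 hF.c f H r)
    {l r k : ℕ} (hr : r < D.nroots) (h : lsK D ρ' gg longs l r = some k) (h2 : Sat2 hF.c f ρ' gg H r) :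
    k < D.nroots ∧ Sat2 hF.c f ρ' gg H k := by
  unfold lsK at h
  cases h1 : sole1 (D.commTerms l r) with
  | none => rw [h1] at h; simp at h
  | some p =>
    obtain ⟨k₁, c⟩ := p
    cases h3 : sole1 (D.commTerms l (ρ' r)) with
    | none => rw [h1, h3] at h; simp at h
    | some p =>
      obtain ⟨k', c'⟩ := p
      rw [h1, h3] at h
      simp only at h
      cases h4 : sole1 (D.commTerms (ρ' r) k₁) with
      | none => rw [h4] at h; simp at h
      | some p =>
        obtain ⟨m, d⟩ := p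
        rw [h4] at h
        simp only at h
        cases h5 : lsCond D ρ' gg longs l r k₁ c c' k' m with
        | false => rw [h5] at h; simp at h
        | true =>
          rw [h5] at h
          simp only [cond_true, Option.some.injEq] at h
          subst h
          unfold lsCond at h5
          simp only [Bool.and_eq_true, Bool.or_eq_true, decide_eq_true_eq, List.isEmpty_iff] at h5
          obtain ⟨e1, e2, e3, e4, e5, e6, e7, e8, e9, e10, e11, e12, e13, e14⟩ := h5
          have e1' : k' = ρ' k₁ := Nat.eq_of_beq_eq_true e1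
          subst e1'
          have n1 := beq_ne e7
          have n2 := beq_ne e8
          have n3 := beq_ne e9
          have n4 := beq_ne e10
          have n5 := beq_ne e11
          have n6 := beq_ne e12
          have n7 := beq_ne e13
          have n8 := beq_ne e14
          have hlL := hl _ (mem_of_memB e4)
          have hmL := hl _ (mem_of_memB e5)
          have c1 := sole1_spec h1
          have c2 := sole1_spec h3
          have c3 := sole1_spec h4
          have hk : k₁ < D.nroots :=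
            (hF.commTerms_spec hlL.1 hr n1 n2 (c := (k₁, c, 1, 1)) (by rw [c1]; exact List.mem_singleton.2 rfl)).1
          refine ⟨hk, fun C => ?_⟩
          have hcc : (c : F) * (c : F) = 1 := by
            rcases e2 with rfl | rfl <;> simp
          have hu := comm_ls (hF := hF) hT hlL.1 hr n1 n2 n3 n4 c1 c2 n5 n6 c3 n7 n8 e6 e3 (1 : F) ((c : F) * C) (map_one f)
          have e15 : (c : F) * 1 * ((c : F) * C) = C := by
            rw [mul_one, ← mul_assoc, hcc, one_mul]
          rw [e15] at hu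
          have hm1 : hF.c.xG m (-(d : F) * ((gg r : F) * f ((c : F) * C)) * C) ∈ H := by
            apply hmL.2
            have hfC : f ((c : F) * C) = (c : F) * f C := by rw [map_mul, f_int]
            have e16 : -(d : F) * ((gg r : F) * f ((c : F) * C)) * C = (-(d : F) * (gg r : F) * (c : F)) * (f C * C) := by
              rw [hfC]
              ring
            rw [e16, map_mul, map_mul, map_mul, map_mul, map_neg, f_int, f_int, f_int, hT.ff]
            ring
          have hl1 : hF.c.xG l (1 : F) ∈ H := hlL.2 _ (map_one f)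
          have h6 := H.mul_mem (H.mul_mem (H.mul_mem (H.mul_mem (H.inv_mem (h2 ((c : F) * C))) hl1) (h2 ((c : F) * C))) (H.inv_mem hl1)) (H.inv_mem hm1)
          rw [hu, mul_inv_cancel_right] at h6
          exact h6

/-- One step of the certificate. -/
noncomputable def addS (D : ChevalleyDatum) (X : Extra) (ws : List (List ℕ)) (ρ' : ℕ → ℕ) (gg : ℕ → ℤ) (longs : List ℕ)
    (known : List ℕ) (e : ℕ × ℕ) : List ℕ :=
  bif memB e.1 known then
    bif Nat.blt e.2 D.nroots then
      match lsK D ρ' gg longs e.2 e.1 with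
      | some k => k :: known
      | none => known
    else wAct X (ws.getD (e.2 - D.nroots) []) e.1 :: known
  else known

/-- The certificate. -/
noncomputable def runS (D : ChevalleyDatum) (X : Extra) (ws : List (List ℕ)) (ρ' : ℕ → ℕ) (gg : ℕ → ℤ) (longs : List ℕ)
    (known : List ℕ) : List (ℕ × ℕ) → List ℕ
  | [] => known
  | e :: es => runS D X ws ρ' gg longs (addS D X ws ρ' gg longs known e) es

theorem runS_sound (hT : TwD τ f ρ' gg) {longs : List ℕ} (hl : ∀ r ∈ longs, r < D.nroots ∧ Sat1 hF.c f H r)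
    {ws : List (List ℕ)} (hw : ∀ w ∈ ws, (∀ i ∈ w, i < D.rank) ∧ nW hF w ∈ H ∧ τ.s (nW hF (F := F) w) = nW hF w)
    (es : List (ℕ × ℕ)) {known : List ℕ} (hk : ∀ r ∈ known, r < D.nroots ∧ Sat2 hF.c f ρ' gg H r) :
    ∀ r ∈ runS D X ws ρ' gg longs known es, r < D.nroots ∧ Sat2 hF.c f ρ' gg H r := by
  induction es generalizing known with
  | nil => exact hk
  | cons e es ih =>
    apply ih
    unfold addS
    cases h1 : memB e.1 known with
    | false => simpa using hk
    | true =>
      have h1' := hk _ (mem_of_memB h1)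
      simp only [cond_true]
      cases h2 : Nat.blt e.2 D.nroots with
      | true =>
        simp only [cond_true]
        cases h3 : lsK D ρ' gg longs e.2 e.1 with
        | none => simpa using hk
        | some k =>
          intro r hr
          rcases List.mem_cons.1 hr with rfl | hr
          · exact sat2_ls hT hl h1'.1 h3 h1'.2
          · exact hk r hr
      | false =>
        simp only [cond_false]
        intro r hr
        rcases List.mem_cons.1 hr with rfl | hr
        · by_cases h0 : e.2 - D.nroots < ws.length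
          · have h3 : ws.getD (e.2 - D.nroots) [] ∈ ws := by
              rw [List.getD_eq_getElem _ _ h0]
              exact List.getElem_mem h0
            obtain ⟨h4, h5, h6⟩ := hw _ h3
            exact ⟨wAct_lt hF h4 h1'.1, sat2_nW hT h4 h5 h6 h1'.1 h1'.2⟩
          · rw [List.getD_eq_default _ _ (not_lt.1 h0)]
            exact h1'
        · exact hk r hr

/-! ### The torus -/

/-- The characters of a fixed torus element. -/
theorem chi_fixed (hT : TwD τ f ρ' gg) {c : Fin D.rank → Fˣ} (hc : τ.s (tor R D c) = tor R D c) {r : ℕ} (hr : r < D.nroots) :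
    f ((chiT D c r : Fˣ) : F) = ((chiT D c (ρ' r) : Fˣ) : F) := by
  have hb : tor R D c ∈ D.group F := tor_mem_group hF c
  have hx := hF.c.xG_mem_group hr (1 : F)
  have h1 := congrArg τ.s (hF.tor_conj_xG c hr (1 : F))
  rw [τ.s_mul (Subgroup.mul_mem _ hb hx) (Subgroup.inv_mem _ hb), τ.s_mul hb hx, τ.s_inv hb, hc, hT.s_x _ hr, hT.s_x _ hr,
    hF.tor_conj_xG c (hT.ρ_lt r hr)] at h1
  simp only [map_one, mul_one] at h1
  have h2 := hF.xG_param_inj (hT.ρ_lt r hr) h1
  have hg : (gg r : F) ≠ 0 := by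
    rcases hT.unit r hr with h | h <;> rw [h] <;> simp
  have h3 : ((chiT D c (ρ' r) : Fˣ) : F) * (gg r : F) = f ((chiT D c r : Fˣ) : F) * (gg r : F) := by
    rw [h2]
    ring
  exact (mul_right_cancel₀ hg h3).symm

theorem YY_conj_tor (hT : TwD τ f ρ' gg) {c : Fin D.rank → Fˣ} (hc : τ.s (tor R D c) = tor R D c) {r : ℕ} (hr : r < D.nroots) (A : F) :
    tor R D c * YY hF.c f ρ' gg r A * (tor R D c)⁻¹ = YY hF.c f ρ' gg r (((chiT D c r : Fˣ) : F) * A) := by
  have h1 : tor R D c * YY hF.c f ρ' gg r A * (tor R D c)⁻¹ =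
      (tor R D c * hF.c.xG r A * (tor R D c)⁻¹) * (tor R D c * hF.c.xG (ρ' r) ((gg r : F) * f A) * (tor R D c)⁻¹) := by
    unfold YY
    group
  rw [h1, hF.tor_conj_xG c hr, hF.tor_conj_xG c (hT.ρ_lt r hr)]
  unfold YY
  rw [map_mul, chi_fixed hT hc hr]
  congr 2
  ring

theorem YY_add (hT : TwD τ f ρ' gg) {r : ℕ} (hcomm : ∀ u v : F, Commute (hF.c.xG r u) (hF.c.xG (ρ' r) v)) (A B : F) :
    YY hF.c f ρ' gg r (A + B) = YY hF.c f ρ' gg r A * YY hF.c f ρ' gg r B := by
  unfold YY
  have h1 : hF.c.xG r (A + B) = hF.c.xG r A * hF.c.xG r B := (hF.c.xG_add _ _ _).symm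
  have h2 : hF.c.xG (ρ' r) ((gg r : F) * f (A + B)) = hF.c.xG (ρ' r) ((gg r : F) * f A) * hF.c.xG (ρ' r) ((gg r : F) * f B) := by
    rw [hF.c.xG_add, map_add, mul_add]
  rw [h1, h2]
  have h3 := (hcomm B ((gg r : F) * f A)).eq
  calc hF.c.xG r A * hF.c.xG r B * (hF.c.xG (ρ' r) ((gg r : F) * f A) * hF.c.xG (ρ' r) ((gg r : F) * f B))
      = hF.c.xG r A * (hF.c.xG r B * hF.c.xG (ρ' r) ((gg r : F) * f A)) * hF.c.xG (ρ' r) ((gg r : F) * f B) := by group
    _ = _ := by rw [h3]; group

theorem YY_conj_y (hT : TwD τ f ρ' gg) {s k m : ℕ} {d1 d2 : ℤ} (hs : s < D.nroots) (hk : k < D.nroots)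
    (n1 : k ≠ s) (n2 : k ≠ D.neg s) (c1 : D.commTerms s k = [])
    (n3 : ρ' k ≠ ρ' s) (n4 : ρ' k ≠ D.neg (ρ' s)) (c2 : D.commTerms (ρ' s) (ρ' k) = [])
    (n5 : k ≠ ρ' s) (n6 : k ≠ D.neg (ρ' s)) (c3 : D.commTerms (ρ' s) k = [(m, d2, 1, 1)])
    (n7 : ρ' k ≠ s) (n8 : ρ' k ≠ D.neg s) (c4 : D.commTerms s (ρ' k) = [(m, d1, 1, 1)])
    (n9 : m ≠ s) (n10 : m ≠ D.neg s) (c5 : D.commTerms s m = [])
    (n11 : ρ' k ≠ m) (n12 : ρ' k ≠ D.neg m) (c6 : D.commTerms m (ρ' k) = [])
    (u v A : F) :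
    hF.c.xG s u * hF.c.xG (ρ' s) v * YY hF.c f ρ' gg k A * (hF.c.xG s u * hF.c.xG (ρ' s) v)⁻¹ =
      YY hF.c f ρ' gg k A * hF.c.xG m ((d2 : F) * v * A + (d1 : F) * u * ((gg k : F) * f A)) := by
  have hsb := hT.ρ_lt s hs
  have hkb := hT.ρ_lt k hk
  have hm : m < D.nroots := (hF.commTerms_spec hsb hk n5 n6 (c := (m, d2, 1, 1)) (by rw [c3]; exact List.mem_singleton.2 rfl)).1
  set B : F := (gg k : F) * f A with hB
  set R1 := hF.c.xG s u with hR1
  set R2 := hF.c.xG (ρ' s) v with hR2
  set P := hF.c.xG k A with hP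
  set Q := hF.c.xG (ρ' k) B with hQ
  set M2 := hF.c.xG m ((d2 : F) * v * A) with hM2
  set M1 := hF.c.xG m ((d1 : F) * u * B) with hM1
  have e1 : R2 * P * R2⁻¹ = P * M2 := by
    rw [hF.xG_conj hsb hk n5 n6, ChevalleyDatum.commWord, c3]
    simp [Checks.wordG_cons, Checks.wordG_nil, hM2]
    rfl
  have e2 : Commute R2 Q := commute_of_nil hF hsb hkb n3 n4 c2 _ _
  have e3 : Commute R1 P := commute_of_nil hF hs hk n1 n2 c1 _ _
  have e4 : R1 * Q * R1⁻¹ = Q * M1 := by
    rw [hF.xG_conj hs hkb n7 n8, ChevalleyDatum.commWord, c4]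
    simp [Checks.wordG_cons, Checks.wordG_nil, hM1]
    rfl
  have e5 : Commute R1 M2 := commute_of_nil hF hs hm n9 n10 c5 _ _
  have e6 : Commute M2 Q := commute_of_nil hF hm hkb n11 n12 c6 _ _
  have e7 : YY hF.c f ρ' gg k A = P * Q := rfl
  rw [e7]
  have e8 : R1 * R2 * (P * Q) * (R1 * R2)⁻¹ = R1 * ((R2 * P * R2⁻¹) * (R2 * Q * R2⁻¹)) * R1⁻¹ := by group
  rw [e8, e1, e2.eq, mul_inv_cancel_right]
  have e9 : R1 * (P * M2 * Q) * R1⁻¹ = (R1 * P * R1⁻¹) * (R1 * M2 * R1⁻¹) * (R1 * Q * R1⁻¹) := by group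
  rw [e9, e4, e3.eq, mul_inv_cancel_right, e5.eq, mul_inv_cancel_right]
  have e10 : hF.c.xG m ((d2 : F) * v * A + (d1 : F) * u * B) = M2 * M1 := by
    rw [hM2, hM1, hF.c.xG_add]
  rw [e10]
  calc P * M2 * (Q * M1) = P * (M2 * Q) * M1 := by group
    _ = P * (Q * M2) * M1 := by rw [e6.eq]
    _ = P * Q * (M2 * M1) := by group

/-! ### Fields -/

theorem exists_line {K : Type*} [Field K] [Fintype K] {f : K ≃+* K} {q : ℕ} (hq : 0 < q) (hc : Fintype.card K = q ^ 2)
    (hfix : Nat.card {t : K // f t = t} = q) {χ : K} (hχ : f χ ≠ χ) (C : K) : ∃ a b : K, f a = a ∧ f b = b ∧ C = a + b * χ := by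
  classical
  let φ : {t : K // f t = t} × {t : K // f t = t} → K := fun p => p.1.1 + p.2.1 * χ
  have hφ : Function.Injective φ := by
    rintro ⟨⟨a, ha⟩, ⟨b, hb⟩⟩ ⟨⟨a', ha'⟩, ⟨b', hb'⟩⟩ e
    have e1 : a + b * χ = a' + b' * χ := e
    by_cases h : b = b'
    · subst h
      have : a = a' := add_right_cancel e1
      subst this
      rfl
    · exfalso
      apply hχ
      have h1 : b - b' ≠ 0 := sub_ne_zero.2 h
      have h2 : χ = (a' - a) / (b - b') := by
        field_simp
        linear_combination e1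
      rw [h2, map_div₀, map_sub, map_sub, ha, ha', hb, hb']
  have hcard : Nat.card K ≤ Nat.card ({t : K // f t = t} × {t : K // f t = t}) := by
    rw [Nat.card_prod, hfix, Nat.card_eq_fintype_card, hc, sq]
  obtain ⟨⟨⟨a, ha⟩, ⟨b, hb⟩⟩, e⟩ := (hφ.bijective_of_nat_card_le hcard).2 C
  exact ⟨a, b, ha, hb, e.symm⟩

end Cfsg.Agent.Lib.Chev.TwoGen
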