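import Cfsg.Agent.Lib.ChevGen3.Cert

/-!
# Two generators for twisted groups: the construction for pairs of commuting root elements
-/

namespace Cfsg.Agent.Lib.Chev.TwoGen

open Cfsg.Lie Matrix

variable {F : Type*} [Field F]
variable {T : Tabs} {X : Extra} {R : RootTab} {D : ChevalleyDatum} {hF : Full T X R D}
variable {τ : Tw hF F} {f : F ≃+* F} {ρ' : ℕ → ℕ} {gg : ℕ → ℤ} {H : Subgroup (GL D.Idx F)}

theorem tor_mul_two_pow [Fintype F] (hF : Full T X R D) (c : Fin D.rank → Fˣ) {s s' : ℕ} (hs : s < D.nroots) (hs' : s' < D.nroots)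
    (hne : chiT D c s ≠ 1) (hne' : chiT D c s' ≠ 1) (hcomm : ∀ u v : F, Commute (hF.c.xG s u) (hF.c.xG s' v)) :
    (tor R D c * (hF.c.xG s (1 : F) * hF.c.xG s' (1 : F))) ^ (Fintype.card F - 1) = 1 := by
  obtain ⟨k, hk⟩ := tor_mul_x_eq hF c hs hne
  obtain ⟨k', hk'⟩ := tor_mul_x_eq hF c hs' hne'
  have h1 : tor R D c * (hF.c.xG s (1 : F) * hF.c.xG s' (1 : F)) =
      (hF.c.xG s (-k) * hF.c.xG s' (-k')) * tor R D c * (hF.c.xG s (-k) * hF.c.xG s' (-k'))⁻¹ := by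
    have h2 : (hF.c.xG s (-k) * hF.c.xG s' (-k'))⁻¹ = hF.c.xG s' k' * hF.c.xG s k := by
      rw [_root_.mul_inv_rev, hF.c.xG_inv, hF.c.xG_inv, neg_neg, neg_neg]
    rw [h2, ← mul_assoc, hk]
    have h3 := (hcomm k (1 : F)).eq
    calc hF.c.xG s (-k) * tor R D c * hF.c.xG s k * hF.c.xG s' 1
        = hF.c.xG s (-k) * tor R D c * (hF.c.xG s k * hF.c.xG s' 1) := by group
      _ = hF.c.xG s (-k) * (tor R D c * hF.c.xG s' 1) * hF.c.xG s k := by rw [h3]; group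
      _ = _ := by rw [hk']; group
  rw [h1, conj_pow, tor_pow_card]
  simp

/-- The construction. -/
theorem design_pair [Fintype F] (hT : TwD τ f ρ' gg) {w : List ℕ} (hw : ∀ i ∈ w, i < D.rank)
    (hbf : τ.s (nW hF (F := F) w) = nW hF w) {l l1 s β k0 m k1 : ℕ}
    (hl : l < D.nroots) (hs : s < D.nroots) (hβ : β < D.nroots) (hk0 : k0 < D.nroots)
    (c : Fin D.rank → Fˣ) (hcf : τ.s (tor R D c) = tor R D c) (hgs : gg s = 1)
    (χl : chiT D c l = 1) (χs : chiT D c s ≠ 1) (χsb : chiT D c (ρ' s) ≠ 1)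
    (n_ls : s ≠ l) (n_ls2 : s ≠ D.neg l) (c_ls : D.commTerms l s = [])
    (n_lsb : ρ' s ≠ l) (n_lsb2 : ρ' s ≠ D.neg l) (c_lsb : D.commTerms l (ρ' s) = [])
    (n_ssb : ρ' s ≠ s) (n_ssb2 : ρ' s ≠ D.neg s) (c_ssb : D.commTerms s (ρ' s) = [])
    (hk1 : (wAct X w)^[k1] l = l1)
    (n_l1s : s ≠ l1) (n_l1s2 : s ≠ D.neg l1) (c_l1s : D.commTerms l1 s = [])
    (n_l1sb : ρ' s ≠ l1) (n_l1sb2 : ρ' s ≠ D.neg l1) (c_l1sb : D.commTerms l1 (ρ' s) = [])
    (hν : ∀ t : F, f t = t → t ≠ 0 → ∃ n : ℕ, ((chiT D c l1 ^ n : Fˣ) : F) = t)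
    (es : List (ℕ × ℕ)) (longs : List ℕ) (hlongs : ∀ r ∈ longs, memB r (runC D X [w] [l1] es) = true)
    (hβL : β ∈ longs) (hmL : m ∈ longs) (hρm : ρ' m = m) (hρβ : ρ' β = β)
    {c0 c0' d d1 : ℤ}
    (n1 : s ≠ β) (n2 : s ≠ D.neg β) (n3 : ρ' s ≠ β) (n4 : ρ' s ≠ D.neg β)
    (t1 : D.commTerms β s = [(k0, c0, 1, 1)]) (t2 : D.commTerms β (ρ' s) = [(ρ' k0, c0', 1, 1)])
    (n5 : k0 ≠ ρ' s) (n6 : k0 ≠ D.neg (ρ' s)) (t3 : D.commTerms (ρ' s) k0 = [(m, d, 1, 1)])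
    (n7 : ρ' k0 ≠ m) (n8 : ρ' k0 ≠ D.neg m) (t4 : D.commTerms m (ρ' k0) = [])
    (hs0 : (c0' * gg s : ℤ) = gg k0 * c0) (hc0 : c0 = 1 ∨ c0 = -1)
    (a1 : k0 ≠ s) (a2 : k0 ≠ D.neg s) (a3 : D.commTerms s k0 = [])
    (a4 : ρ' k0 ≠ ρ' s) (a5 : ρ' k0 ≠ D.neg (ρ' s)) (a6 : D.commTerms (ρ' s) (ρ' k0) = [])
    (a7 : ρ' k0 ≠ s) (a8 : ρ' k0 ≠ D.neg s) (a9 : D.commTerms s (ρ' k0) = [(m, d1, 1, 1)])
    (a10 : m ≠ s) (a11 : m ≠ D.neg s) (a12 : D.commTerms s m = [])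
    (hd : d1 * gg k0 = d)
    (a13 : ρ' k0 ≠ k0) (a14 : ρ' k0 ≠ D.neg k0) (a15 : D.commTerms k0 (ρ' k0) = [])
    {q : ℕ} (hq : 0 < q) (hcard : Fintype.card F = q ^ 2) (hfix : Nat.card {t : F // f t = t} = q)
    (hχ0 : f ((chiT D c k0 : Fˣ) : F) ≠ ((chiT D c k0 : Fˣ) : F))
    (ha : tor R D c * YY hF.c f ρ' gg s 1 * hF.c.xG l (1 : F) ∈ H) (hb : nW hF w ∈ H) :
    (∀ r ∈ longs, r < D.nroots ∧ Sat1 hF.c f H r) ∧ Sat2 hF.c f ρ' gg H k0 := by
  have hsb := hT.ρ_lt s hs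
  have hl1 : l1 < D.nroots := by
    rw [← hk1]
    exact iter_lt hF hw hl k1
  have hm : m < D.nroots := (hF.commTerms_spec hsb hk0 n5 n6 (c := (m, d, 1, 1)) (by rw [t3]; exact List.mem_singleton.2 rfl)).1
  set tt := tor R D c with htt
  set y := hF.c.xG s (1 : F) * hF.c.xG (ρ' s) (1 : F) with hy
  have hY1 : YY hF.c f ρ' gg s 1 = y := by
    unfold YY
    rw [hgs, hy, map_one]
    simp
  rw [hY1] at ha
  set u := tt * y with hu
  have hcss : ∀ p v : F, Commute (hF.c.xG s p) (hF.c.xG (ρ' s) v) := fun p v => commute_of_nil hF hs hsb n_ssb n_ssb2 c_ssb p v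
  have hupow : u ^ (Fintype.card F - 1) = 1 := tor_mul_two_pow hF c hs hsb χs χsb hcss
  have hcommT : Commute tt (hF.c.xG l (1 : F)) := by
    have h2 := hF.tor_mul_xG c hl (1 : F)
    rw [χl, Units.val_one, one_mul] at h2
    exact h2
  have hcomm1 : Commute (hF.c.xG l (1 : F)) (hF.c.xG s (1 : F)) := commute_of_nil hF hl hs n_ls n_ls2 c_ls _ _
  have hcomm2 : Commute (hF.c.xG l (1 : F)) (hF.c.xG (ρ' s) (1 : F)) := commute_of_nil hF hl hsb n_lsb n_lsb2 c_lsb _ _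
  have hcomm : Commute u (hF.c.xG l (1 : F)) := hcommT.mul_left (hcomm1.symm.mul_left hcomm2.symm)
  obtain ⟨hxH, huH⟩ := extract (hC := hF.c) rfl hcomm hupow ha
  have hx1 : hF.c.xG l1 (1 : F) ∈ H := by
    rw [← hk1]
    exact one_iter hF hw hb hl hxH k1
  -- the conjugation by `u`
  have huconj : ∀ t : F, u * hF.c.xG l1 t * u⁻¹ = hF.c.xG l1 (((chiT D c l1 : Fˣ) : F) * t) := by
    intro t
    have h1 : Commute y (hF.c.xG l1 t) :=
      (commute_of_nil hF hl1 hs n_l1s n_l1s2 c_l1s t 1).symm.mul_left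
        (commute_of_nil hF hl1 hsb n_l1sb n_l1sb2 c_l1sb t 1).symm
    have h2 : u * hF.c.xG l1 t * u⁻¹ = tt * (y * hF.c.xG l1 t * y⁻¹) * tt⁻¹ := by
      rw [hu]
      group
    rw [h2, h1.eq, mul_inv_cancel_right]
    exact hF.tor_conj_xG c hl1 t
  have hsat : Sat1 hF.c f H l1 := by
    intro t ht
    by_cases h0 : t = 0
    · rw [h0, hF.c.xG_zero]
      exact H.one_mem
    · obtain ⟨n, hn⟩ := hν t ht h0
      rw [← hn]
      clear hn
      induction n with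
      | zero => simpa using hx1
      | succ n ih =>
        have h2 := H.mul_mem (H.mul_mem huH ih) (H.inv_mem huH)
        rw [huconj] at h2
        convert h2 using 2
        rw [pow_succ, Units.val_mul, mul_comm]
  have hrun := runC_sat1 (H := H) (hF := hF) (f := f) (ws := [w]) (by simpa using ⟨hw, hb⟩) es (known := [l1]) (by simpa using ⟨hl1, hsat⟩)
  have hL : ∀ r ∈ longs, r < D.nroots ∧ Sat1 hF.c f H r := fun r hr => hrun r (mem_of_memB (hlongs r hr))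
  refine ⟨hL, ?_⟩
  have hmS := (hL m hmL).2
  have hβS := (hL β hβL).2
  have hχm : f ((chiT D c m : Fˣ) : F) = ((chiT D c m : Fˣ) : F) := by
    have := chi_fixed hT hcf hm
    rwa [hρm] at this
  have hχβ : f ((chiT D c β : Fˣ) : F) = ((chiT D c β : Fˣ) : F) := by
    have := chi_fixed hT hcf hβ
    rwa [hρβ] at this
  set χ0 : F := ((chiT D c k0 : Fˣ) : F) with hχ0'
  have hcc : (c0 : F) * (c0 : F) = 1 := by
    rcases hc0 with rfl | rfl <;> simp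
  -- the first line
  have hyinv : YY hF.c f ρ' gg s (-1) = y⁻¹ := by
    unfold YY
    rw [hgs, hy, _root_.mul_inv_rev, hF.c.xG_inv, hF.c.xG_inv, map_neg, map_one]
    simp only [Int.cast_one, one_mul]
    exact hcss _ _
  have hline : ∀ t : F, f t = t → YY hF.c f ρ' gg k0 (χ0 * t) ∈ H := by
    intro t ht
    have htc : f (-(c0 : F) * t) = -(c0 : F) * t := by rw [map_mul, map_neg, f_int, ht]
    have h1 := comm_ls (hF := hF) hT hβ hs n1 n2 n3 n4 t1 t2 n5 n6 t3 n7 n8 t4 hs0 (-(c0 : F) * t) (-1) htc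
    rw [hyinv, inv_inv] at h1
    have e1 : (c0 : F) * (-(c0 : F) * t) * -1 = t := by
      calc (c0 : F) * (-(c0 : F) * t) * -1 = ((c0 : F) * (c0 : F)) * t := by ring
        _ = t := by rw [hcc, one_mul]
    rw [e1] at h1
    set X1 := hF.c.xG β (-(c0 : F) * t) with hX1
    set κ : F := -(d : F) * ((gg s : F) * f (-1)) * t with hκ
    have hκf : f κ = κ := by
      simp only [hκ, map_mul, map_neg, map_one, f_int, ht]
    have e2 : u * X1 * u⁻¹ = (tt * YY hF.c f ρ' gg k0 t * tt⁻¹) * (tt * hF.c.xG m κ * tt⁻¹) * (tt * X1 * tt⁻¹) := by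
      have e3 : y * X1 * y⁻¹ = YY hF.c f ρ' gg k0 t * hF.c.xG m κ * X1 := by
        rw [← h1]
        group
      have e4 : u * X1 * u⁻¹ = tt * (y * X1 * y⁻¹) * tt⁻¹ := by
        rw [hu]
        group
      rw [e4, e3]
      group
    rw [YY_conj_tor hT hcf hk0, hF.tor_conj_xG c hm, hX1, hF.tor_conj_xG c hβ] at e2
    rw [← hX1] at e2
    have h5 : X1 ∈ H := hβS _ htc
    have h6 : hF.c.xG m (((chiT D c m : Fˣ) : F) * κ) ∈ H := hmS _ (by rw [map_mul, hχm, hκf])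
    have h7 : hF.c.xG β (((chiT D c β : Fˣ) : F) * (-(c0 : F) * t)) ∈ H := hβS _ (by rw [map_mul, hχβ, htc])
    have h8 := H.mul_mem (H.mul_mem (H.mul_mem (H.mul_mem huH h5) (H.inv_mem huH)) (H.inv_mem h7)) (H.inv_mem h6)
    rw [e2, mul_inv_cancel_right, mul_inv_cancel_right] at h8
    exact h8
  -- the scale
  have hscale : ∀ A : F, YY hF.c f ρ' gg k0 A ∈ H → YY hF.c f ρ' gg k0 (χ0 * A) ∈ H := by
    intro A hA
    have h1 := YY_conj_y (hF := hF) hT hs hk0 a1 a2 a3 a4 a5 a6 n5 n6 t3 a7 a8 a9 a10 a11 a12 n7 n8 t4 (1 : F) (1 : F) A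
    rw [← hy] at h1
    set κ : F := (d : F) * 1 * A + (d1 : F) * 1 * ((gg k0 : F) * f A) with hκ
    have hκ2 : κ = (d : F) * (A + f A) := by
      rw [hκ, ← hd]
      push_cast
      ring
    have hκf : f κ = κ := by
      rw [hκ2, map_mul, f_int, map_add, hT.ff]
      ring
    have e2 : u * YY hF.c f ρ' gg k0 A * u⁻¹ = (tt * YY hF.c f ρ' gg k0 A * tt⁻¹) * (tt * hF.c.xG m κ * tt⁻¹) := by
      have e4 : u * YY hF.c f ρ' gg k0 A * u⁻¹ = tt * (y * YY hF.c f ρ' gg k0 A * y⁻¹) * tt⁻¹ := by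
        rw [hu]
        group
      rw [e4, h1]
      group
    rw [YY_conj_tor hT hcf hk0, hF.tor_conj_xG c hm] at e2
    have h6 : hF.c.xG m (((chiT D c m : Fˣ) : F) * κ) ∈ H := hmS _ (by rw [map_mul, hχm, hκf])
    have h8 := H.mul_mem (H.mul_mem (H.mul_mem huH hA) (H.inv_mem huH)) (H.inv_mem h6)
    rw [e2, mul_inv_cancel_right] at h8
    exact h8
  intro C
  have hχne : χ0 ≠ 0 := Units.ne_zero _
  obtain ⟨a, b, ha', hb', e⟩ := exists_line hq hcard hfix hχ0 (χ0⁻¹ * C)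
  have e2 : C = χ0 * a + χ0 * (χ0 * b) := by
    have e3 : C = χ0 * (χ0⁻¹ * C) := by rw [← mul_assoc, mul_inv_cancel₀ hχne, one_mul]
    rw [e3, e]
    ring
  rw [e2, YY_add hT (commute_of_nil hF hk0 (hT.ρ_lt _ hk0) a13 a14 a15)]
  exact H.mul_mem (hline a ha') (hscale _ (hline b hb'))

end Cfsg.Agent.Lib.Chev.TwoGen
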