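import Mathlib.FieldTheory.Finite.Basic

/-!
# Generators of the multiplicative group of a field and a quadratic subfield
-/

namespace Cfsg.Agent.Lib.Chev.TwoGen

variable {K : Type*} [Field K] [Fintype K]

theorem order_gen {z : Kˣ} (hz : ∀ x : Kˣ, x ∈ Subgroup.zpowers z) : orderOf z = Fintype.card K - 1 := by
  classical
  rw [orderOf_eq_card_of_forall_mem_zpowers hz, Nat.card_eq_fintype_card, Fintype.card_units]

theorem gen_sq_ne {z : Kˣ} (hz : ∀ x : Kˣ, x ∈ Subgroup.zpowers z) {q : ℕ} (hq : 2 ≤ q) (hK : Fintype.card K = q ^ 2) : z ^ 2 ≠ 1 := by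
  intro h
  have h1 := orderOf_dvd_of_pow_eq_one h
  rw [order_gen hz, hK] at h1
  have h2 := Nat.le_of_dvd (by norm_num) h1
  have h3 : 4 ≤ q ^ 2 := by nlinarith
  omega

theorem gen_frob {z : Kˣ} (hz : ∀ x : Kˣ, x ∈ Subgroup.zpowers z) {q : ℕ} (hq : 2 ≤ q) (hK : Fintype.card K = q ^ 2)
    (hne : (z ^ q) ^ 2 = z ^ 2) : False := by
  have h1 : z ^ (2 * (q - 1)) = 1 := by
    have h2 : z ^ (q * 2) = z ^ 2 := by rw [pow_mul, hne]
    have h3 : q * 2 = 2 * (q - 1) + 2 := by omega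
    rw [h3, pow_add] at h2
    exact mul_eq_right.1 h2
  have h2 := orderOf_dvd_of_pow_eq_one h1
  rw [order_gen hz, hK] at h2
  have h3 : q ^ 2 - 1 = (q - 1) * (q + 1) := by
    obtain ⟨m, rfl⟩ : ∃ m, q = m + 1 := ⟨q - 1, by omega⟩
    simp only [Nat.add_sub_cancel]
    have : (m + 1) ^ 2 = m * (m + 1 + 1) + 1 := by ring
    omega
  rw [h3, mul_comm 2] at h2
  have h4 : q + 1 ∣ 2 := Nat.dvd_of_mul_dvd_mul_left (by omega) h2
  have h5 := Nat.le_of_dvd (by norm_num) h4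
  omega

/-- The norm of a generator generates the subfield. -/
theorem gen_norm {z : Kˣ} (hz : ∀ x : Kˣ, x ∈ Subgroup.zpowers z) {q : ℕ} (hq : 2 ≤ q) (hK : Fintype.card K = q ^ 2)
    (u : Kˣ) (hu : u ^ q = u) : ∃ n : ℕ, (z * z ^ q) ^ n = u := by
  have h1 : u ∈ Submonoid.powers z := mem_powers_iff_mem_zpowers.2 (hz u)
  obtain ⟨m, rfl⟩ := h1
  have h2 : z ^ (m * (q - 1)) = 1 := by
    have h3 : z ^ (m * q) = z ^ m := by rw [pow_mul]; exact hu
    have h4 : m * q = m * (q - 1) + m := by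
      obtain ⟨k, rfl⟩ : ∃ k, q = k + 1 := ⟨q - 1, by omega⟩
      simp only [Nat.add_sub_cancel]
      ring
    rw [h4, pow_add] at h3
    exact mul_eq_right.1 h3
  have h3 := orderOf_dvd_of_pow_eq_one h2
  rw [order_gen hz, hK] at h3
  have h4 : q ^ 2 - 1 = (q + 1) * (q - 1) := by
    obtain ⟨k, rfl⟩ : ∃ k, q = k + 1 := ⟨q - 1, by omega⟩
    simp only [Nat.add_sub_cancel]
    have : (k + 1) ^ 2 = (k + 1 + 1) * k + 1 := by ring
    omega
  rw [h4] at h3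
  have h5 : q + 1 ∣ m := Nat.dvd_of_mul_dvd_mul_right (by omega) h3
  obtain ⟨n, rfl⟩ := h5
  refine ⟨n, ?_⟩
  show (z * z ^ q) ^ n = z ^ ((q + 1) * n)
  rw [pow_mul, pow_add, pow_one, mul_comm (z ^ q)]

end Cfsg.Agent.Lib.Chev.TwoGen
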