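import Cfsg.Agent.Lib.ChevGen3.D4Col
import Cfsg.Agent.Lib.ChevGen3.Design
import Cfsg.Agent.Lib.ChevGen3.Fld
import Cfsg.Agent.Lib.Chev.TwD4BN

/-!
# Two generators for `³D₄`
-/

namespace Cfsg.Agent.Lib.Chev.TwoGen.D4

open Cfsg.Lie Matrix
open Cfsg.Agent.Lib.Chev
open Cfsg.Agent.Lib.Chev.TwD4 (hF sc G1_eq J exists_frob3)

set_option maxRecDepth 100000

/-- the signs -/
noncomputable abbrev gD : ℕ → ℤ := Trie.find (Int.ofNat 1) TwTabD4.g
/-- the permutation -/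
noncomputable abbrev rD : ℕ → ℕ := TwTabD4.S.r

variable {K : Type*} [Field K] [Fintype K] (f : K ≃+* K)

theorem s_x {r : ℕ} (hr : r < chevD4.nroots) (t : K) :
    (TwD4.τ f).s (hF.c.xG r t) = hF.c.xG (rD r) ((gD r : K) * f t) :=
  TwTabD4.ok.signTw_s hF TwTabD4.sign_ok TwTabD4.sq_ok TwTabD4.unit_ok TwTabD4.neg_ok f hr t

theorem rD_lt {r : ℕ} (hr : r < chevD4.nroots) : rD r < chevD4.nroots := TwTabD4.ok.r_lt r hr

theorem g_sq {r : ℕ} (hr : r < chevD4.nroots) : (gD r : K) * (gD r : K) = 1 := by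
  rcases TwTabD4.unit_ok r hr with h | h
  · have h' : gD r = 1 := h
    rw [h']
    simp
  · have h' : gD r = -1 := h
    rw [h']
    simp

/-- The class element. -/
noncomputable def Y3 (r : ℕ) (A : K) : GL chevD4.Idx K :=
  hF.c.xG r A * (hF.c.xG (rD r) ((gD r : K) * f A) * hF.c.xG (rD (rD r)) ((gD (rD r) : K) * ((gD r : K) * f (f A))))

theorem Y18_eq (A : K) : Y3 f 18 A = hF.c.xG 18 A * (hF.c.xG 13 (f A) * hF.c.xG 12 (f (f A))) := by
  have e1 : rD 18 = 13 := by decide +kernel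
  have e2 : rD 13 = 12 := by decide +kernel
  have e3 : gD 18 = 1 := by decide +kernel
  have e4 : gD 13 = 1 := by decide +kernel
  unfold Y3
  rw [e1, e2, e3, e4]
  simp

theorem Y5_eq (A : K) : Y3 f 5 A = hF.c.xG 5 A * (hF.c.xG 10 (f A) * hF.c.xG 11 (f (f A))) := by
  have e1 : rD 5 = 10 := by decide +kernel
  have e2 : rD 10 = 11 := by decide +kernel
  have e3 : gD 5 = 1 := by decide +kernel
  have e4 : gD 10 = 1 := by decide +kernel
  unfold Y3
  rw [e1, e2, e3, e4]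
  simp

theorem Y19_eq (A : K) : Y3 f 19 A = hF.c.xG 19 A * (hF.c.xG 16 (-(f A)) * hF.c.xG 15 (-(f (f A)))) := by
  have e1 : rD 19 = 16 := by decide +kernel
  have e2 : rD 16 = 15 := by decide +kernel
  have e3 : gD 19 = -1 := by decide +kernel
  have e4 : gD 16 = 1 := by decide +kernel
  unfold Y3
  rw [e1, e2, e3, e4]
  simp

theorem Y17_eq (A : K) : Y3 f 17 A = hF.c.xG 17 A * (hF.c.xG 20 (-(f A)) * hF.c.xG 21 (-(f (f A)))) := by
  have e1 : rD 17 = 20 := by decide +kernel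
  have e2 : rD 20 = 21 := by decide +kernel
  have e3 : gD 17 = -1 := by decide +kernel
  have e4 : gD 20 = 1 := by decide +kernel
  unfold Y3
  rw [e1, e2, e3, e4]
  simp

theorem conj_rho {w : List ℕ} (hw : ∀ i ∈ w, i < chevD4.rank) (hbf : (TwD4.τ f).s (nW hF (F := K) w) = nW hF w) {s : ℕ} (hs : s < chevD4.nroots)
    {e : K} (he : e * e = 1) (hc : ∀ t : K, nW hF w * hF.c.xG s t * (nW hF w)⁻¹ = hF.c.xG (wAct TabD4.X w s) (e * t)) :
    wAct TabD4.X w (rD s) = rD (wAct TabD4.X w s) ∧ ∀ t : K, nW hF w * hF.c.xG (rD s) t * (nW hF w)⁻¹ =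
      hF.c.xG (rD (wAct TabD4.X w s)) ((gD (wAct TabD4.X w s) : K) * (gD s : K) * e * t) := by
  have hsb := rD_lt hs
  have h1 := (nW_conj hF (F := K) hw hs).1
  obtain ⟨h1', e', he', hc'⟩ := nW_conj hF (F := K) hw hsb
  have hb := nW_mem_group hF (F := K) hw
  have hx := hF.c.xG_mem_group hs (1 : K)
  have h2 : (TwD4.τ f).s (nW hF w * hF.c.xG s (1 : K) * (nW hF w)⁻¹) = nW hF w * (TwD4.τ f).s (hF.c.xG s (1 : K)) * (nW hF w)⁻¹ := by
    rw [(TwD4.τ f).s_mul (Subgroup.mul_mem _ hb hx) (Subgroup.inv_mem _ hb), (TwD4.τ f).s_mul hb hx, (TwD4.τ f).s_inv hb, hbf]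
  rw [hc, s_x f h1, s_x f hs, hc'] at h2
  have hfe : f e = e := f_sq_one he
  rw [map_one, mul_one, mul_one, hfe] at h2
  have hg1 := g_sq (K := K) h1
  have hg2 := g_sq (K := K) hs
  have hne : (gD (wAct TabD4.X w s) : K) * e ≠ 0 := by
    intro h0
    have h3 : (gD (wAct TabD4.X w s) : K) * e * ((gD (wAct TabD4.X w s) : K) * e) = 1 := by
      calc (gD (wAct TabD4.X w s) : K) * e * ((gD (wAct TabD4.X w s) : K) * e)
          = ((gD (wAct TabD4.X w s) : K) * (gD (wAct TabD4.X w s) : K)) * (e * e) := by ring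
        _ = 1 := by rw [hg1, he, one_mul]
    rw [h0, zero_mul] at h3
    exact zero_ne_one h3
  have h3 := hF.xG_root_inj (rD_lt h1) h1' hne h2
  rw [h3] at h2
  have h4 := hF.xG_param_inj h1' h2
  refine ⟨h3.symm, fun t => ?_⟩
  rw [hc', h3]
  congr 1
  calc e' * t = e' * ((gD s : K) * (gD s : K)) * t := by rw [hg2, mul_one]
    _ = (e' * (gD s : K)) * (gD s : K) * t := by ring
    _ = _ := by rw [← h4]; ring

theorem Y3_conj {w : List ℕ} (hw : ∀ i ∈ w, i < chevD4.rank) (hbf : (TwD4.τ f).s (nW hF (F := K) w) = nW hF w) {s : ℕ} (hs : s < chevD4.nroots) :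
    ∃ e : K, e * e = 1 ∧ ∀ A : K, nW hF w * Y3 f s A * (nW hF w)⁻¹ = Y3 f (wAct TabD4.X w s) (e * A) := by
  obtain ⟨h1, e, he, hc⟩ := nW_conj hF (F := K) hw hs
  obtain ⟨r1, hc1⟩ := conj_rho f hw hbf hs he hc
  set e1 : K := (gD (wAct TabD4.X w s) : K) * (gD s : K) * e with he1d
  have hg1 := g_sq (K := K) h1
  have hg2 := g_sq (K := K) hs
  have hg3 := g_sq (K := K) (rD_lt hs)
  have hg4 := g_sq (K := K) (rD_lt h1)
  have he1 : e1 * e1 = 1 := by
    calc e1 * e1 = ((gD (wAct TabD4.X w s) : K) * (gD (wAct TabD4.X w s) : K)) * ((gD s : K) * (gD s : K)) * (e * e) := by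
          rw [he1d]; ring
      _ = 1 := by rw [hg1, hg2, he]; ring
  have hc1' : ∀ t : K, nW hF w * hF.c.xG (rD s) t * (nW hF w)⁻¹ = hF.c.xG (wAct TabD4.X w (rD s)) (e1 * t) := by
    intro t
    rw [r1]
    exact hc1 t
  obtain ⟨r2, hc2⟩ := conj_rho f hw hbf (rD_lt hs) he1 hc1'
  refine ⟨e, he, fun A => ?_⟩
  have hfe : f e = e := f_sq_one he
  have hfe2 : f (f e) = e := by rw [hfe, hfe]
  unfold Y3
  have h3 : ∀ a b c : GL chevD4.Idx K, nW hF w * (a * (b * c)) * (nW hF w)⁻¹ =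
      (nW hF w * a * (nW hF w)⁻¹) * ((nW hF w * b * (nW hF w)⁻¹) * (nW hF w * c * (nW hF w)⁻¹)) := by
    intro a b c
    group
  rw [h3, hc, hc1, hc2, r1]
  congr 3
  · rw [map_mul, hfe]
    linear_combination (e * f A) * hg2 * (gD (wAct TabD4.X w s) : K)
  · rw [map_mul, map_mul, hfe, hfe, he1d]
    have e2 : (gD (rD (wAct TabD4.X w s)) : K) * (gD (rD s) : K) * ((gD (wAct TabD4.X w s) : K) * (gD s : K) * e) * ((gD (rD s) : K) * ((gD s : K) * f (f A))) =
        (gD (rD (wAct TabD4.X w s)) : K) * (gD (wAct TabD4.X w s) : K) * e * f (f A) * (((gD (rD s) : K) * (gD (rD s) : K)) * ((gD s : K) * (gD s : K))) := by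
      ring
    rw [e2, hg2, hg3]
    ring

/-- Fixed torus elements and characters. -/
theorem chi_fix {c : Fin chevD4.rank → Kˣ} (hc : (TwD4.τ f).s (tor RootD4T.R chevD4 c) = tor RootD4T.R chevD4 c) {r : ℕ} (hr : r < chevD4.nroots) :
    f ((chiT chevD4 c r : Kˣ) : K) = ((chiT chevD4 c (rD r) : Kˣ) : K) := by
  have hb : tor RootD4T.R chevD4 c ∈ chevD4.group K := tor_mem_group hF c
  have hx := hF.c.xG_mem_group hr (1 : K)
  have h1 := congrArg (TwD4.τ f).s (hF.tor_conj_xG c hr (1 : K))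
  rw [(TwD4.τ f).s_mul (Subgroup.mul_mem _ hb hx) (Subgroup.inv_mem _ hb), (TwD4.τ f).s_mul hb hx, (TwD4.τ f).s_inv hb, hc, s_x f hr, s_x f hr,
    hF.tor_conj_xG c (rD_lt hr)] at h1
  simp only [map_one, mul_one] at h1
  have h2 := hF.xG_param_inj (rD_lt hr) h1
  have hg : (gD r : K) ≠ 0 := by
    intro h0
    have h5 := g_sq (K := K) hr
    rw [h0, zero_mul] at h5
    exact zero_ne_one h5
  have h3 : ((chiT chevD4 c (rD r) : Kˣ) : K) * (gD r : K) = f ((chiT chevD4 c r : Kˣ) : K) * (gD r : K) := by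
    rw [h2]
    ring
  exact (mul_right_cancel₀ hg h3).symm

theorem Y3_tor {c : Fin chevD4.rank → Kˣ} (hc : (TwD4.τ f).s (tor RootD4T.R chevD4 c) = tor RootD4T.R chevD4 c) {r : ℕ} (hr : r < chevD4.nroots) (A : K) :
    tor RootD4T.R chevD4 c * Y3 f r A * (tor RootD4T.R chevD4 c)⁻¹ = Y3 f r (((chiT chevD4 c r : Kˣ) : K) * A) := by
  have h1 : tor RootD4T.R chevD4 c * Y3 f r A * (tor RootD4T.R chevD4 c)⁻¹ =
      (tor RootD4T.R chevD4 c * hF.c.xG r A * (tor RootD4T.R chevD4 c)⁻¹) *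
        ((tor RootD4T.R chevD4 c * hF.c.xG (rD r) ((gD r : K) * f A) * (tor RootD4T.R chevD4 c)⁻¹) *
          (tor RootD4T.R chevD4 c * hF.c.xG (rD (rD r)) ((gD (rD r) : K) * ((gD r : K) * f (f A))) * (tor RootD4T.R chevD4 c)⁻¹)) := by
    unfold Y3
    group
  rw [h1, hF.tor_conj_xG c hr, hF.tor_conj_xG c (rD_lt hr), hF.tor_conj_xG c (rD_lt (rD_lt hr))]
  unfold Y3
  have e1 := chi_fix f hc hr
  have e2 := chi_fix f hc (rD_lt hr)
  simp only [map_mul, e1, e2]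
  congr 3
  · ring
  · ring

/-- all the elements of a class -/
def Sat3 (H : Subgroup (GL chevD4.Idx K)) (r : ℕ) : Prop := ∀ A : K, Y3 f r A ∈ H

theorem sat3_iter {H : Subgroup (GL chevD4.Idx K)} {w : List ℕ} (hw : ∀ i ∈ w, i < chevD4.rank) (hb : nW hF w ∈ H)
    (hbf : (TwD4.τ f).s (nW hF (F := K) w) = nW hF w) {s : ℕ} (hs : s < chevD4.nroots) (h : Sat3 f H s) (n : ℕ) :
    Sat3 f H ((wAct TabD4.X w)^[n] s) := by
  induction n with
  | zero => exact h
  | succ n ih =>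
    rw [Function.iterate_succ_apply']
    obtain ⟨e, he, hc⟩ := Y3_conj f hw hbf (iter_lt hF hw hs n)
    intro A
    have h2 := H.mul_mem (H.mul_mem hb (ih (e * A))) (H.inv_mem hb)
    rw [hc, ← mul_assoc, he, one_mul] at h2
    exact h2

theorem sat1_iter {H : Subgroup (GL chevD4.Idx K)} {w : List ℕ} (hw : ∀ i ∈ w, i < chevD4.rank) (hb : nW hF w ∈ H) {s : ℕ} (hs : s < chevD4.nroots)
    (h : Sat1 hF.c f H s) (n : ℕ) : Sat1 hF.c f H ((wAct TabD4.X w)^[n] s) := by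
  induction n with
  | zero => exact h
  | succ n ih =>
    rw [Function.iterate_succ_apply']
    exact sat1_nW hw hb (iter_lt hF hw hs n) ih

/-- Additivity. -/
theorem Y17_add (A B : K) : Y3 f 17 (A + B) = Y3 f 17 A * Y3 f 17 B := by
  rw [Y17_eq, Y17_eq, Y17_eq]
  have h := id_17add A (f A) (f (f A)) B (f B) (f (f B))
  simp only [_root_.mul_assoc]
  rw [h]
  simp only [map_add, neg_add]

theorem Y17_zero : Y3 f 17 (0 : K) = 1 := by
  rw [Y17_eq]
  simp

theorem Y17_inv (A : K) : (Y3 f 17 A)⁻¹ = Y3 f 17 (-A) := by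
  apply inv_eq_of_mul_eq_one_right
  rw [← Y17_add, add_neg_cancel, Y17_zero]

/-- A plane in a cubic extension. -/
theorem exists_plane {q : ℕ} (hq : 0 < q) (hc : Fintype.card K = q ^ 3) (hfix : Nat.card {t : K // f t = t} = q)
    (hf3 : ∀ t, f (f (f t)) = t) {χ : K} (hχ : f χ ≠ χ) (C : K) :
    ∃ a b d : K, f a = a ∧ f b = b ∧ f d = d ∧ C = a + b * χ + d * (χ * χ) := by
  classical
  let φ : {t : K // f t = t} × {t : K // f t = t} × {t : K // f t = t} → K := fun p => p.1.1 + p.2.1.1 * χ + p.2.2.1 * (χ * χ)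
  have hχ2 : f (f χ) ≠ χ := by
    intro h
    apply hχ
    have h1 := hf3 χ
    rw [h] at h1
    exact h1
  have hχ3 : f χ - χ ≠ 0 := sub_ne_zero.2 hχ
  have hχ4 : f (f χ) - χ ≠ 0 := sub_ne_zero.2 hχ2
  have hφ : Function.Injective φ := by
    rintro ⟨⟨a, ha⟩, ⟨b, hb⟩, ⟨d, hd⟩⟩ ⟨⟨a', ha'⟩, ⟨b', hb'⟩, ⟨d', hd'⟩⟩ e
    have e1 : a + b * χ + d * (χ * χ) = a' + b' * χ + d' * (χ * χ) := e
    have e2 := congrArg f e1
    have e3 := congrArg f e2
    simp only [map_add, map_mul, ha, hb, hd, ha', hb', hd'] at e2 e3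
    have h1 : (f χ - χ) * ((b - b') + (d - d') * (f χ + χ)) = 0 := by
      linear_combination e2 - e1
    have h2 : (b - b') + (d - d') * (f χ + χ) = 0 := (mul_eq_zero.1 h1).resolve_left hχ3
    have h3 : (f (f χ) - χ) * ((b - b') + (d - d') * (f (f χ) + χ)) = 0 := by
      linear_combination e3 - e1
    have h4 : (b - b') + (d - d') * (f (f χ) + χ) = 0 := (mul_eq_zero.1 h3).resolve_left hχ4
    have h5 : (d - d') * (f (f χ) - f χ) = 0 := by linear_combination h4 - h2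
    have hχ5 : f (f χ) - f χ ≠ 0 := by
      intro h
      apply hχ
      exact f.injective (sub_eq_zero.1 h)
    have h6 : d - d' = 0 := (mul_eq_zero.1 h5).resolve_right hχ5
    have h7 : b - b' = 0 := by
      rw [h6, zero_mul, add_zero] at h2
      exact h2
    have h8 : d = d' := sub_eq_zero.1 h6
    have h9 : b = b' := sub_eq_zero.1 h7
    subst h8 h9
    have h10 : a = a' := by linear_combination e1
    subst h10
    rfl
  have hcard : Nat.card K ≤ Nat.card ({t : K // f t = t} × {t : K // f t = t} × {t : K // f t = t}) := by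
    rw [Nat.card_prod, Nat.card_prod, hfix, Nat.card_eq_fintype_card, hc]
    exact le_of_eq (by ring)
  obtain ⟨⟨⟨a, ha⟩, ⟨b, hb⟩, ⟨d, hd⟩⟩, e⟩ := (hφ.bijective_of_nat_card_le hcard).2 C
  exact ⟨a, b, d, ha, hb, hd, e.symm⟩

end Cfsg.Agent.Lib.Chev.TwoGen.D4
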