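import Cfsg.Agent.Lib.ChevCol.Basic
import Cfsg.Agent.Lib.Chev.TwD4

/-!
# Identities in `D₄`
-/

namespace Cfsg.Agent.Lib.Chev.TwoGen.D4

open Cfsg.Lie Matrix
open Cfsg.Agent.Lib.Chev.TwD4 (hF)
open Cfsg.Agent.Lib.Chev.Col

variable {K : Type*} [Field K]

/-- an order for the collector -/
def keyPhi (r : ℕ) : ℕ := ([600, 501, 702, 703, 904, 805, 706, 907, 908, 1109, 810, 811, 1212, 1213, 914, 1115, 1116, 1317, 1218, 1119, 1320, 1321, 1522, 1423] : List ℕ).getD r 0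
/-- an order for the collector -/
def keyId (r : ℕ) : ℕ := r

theorem colD {key : ℕ → ℕ} {w w' : PW} (h : eqW 0 (run chevD4 0 key 600 w) (run chevD4 0 key 600 w') = true)
    (v : ℕ → K) : evW hF v w = evW hF v w' := by
  have h0 : ((0 : ℕ) : K) = 0 := by simp
  rw [← evW_run hF v h0 (key := key) 600 w, ← evW_run hF v h0 (key := key) 600 w']
  exact evW_eqW hF v h0 h

theorem id_yb (t : K) :
    hF.c.xG 18 (1) * (hF.c.xG 13 (1) * (hF.c.xG 12 (1) * (hF.c.xG 14 (t) * (hF.c.xG 12 (-1) * (hF.c.xG 13 (-1) * (hF.c.xG 18 (-1) * (hF.c.xG 14 (-t)))))))) =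
      hF.c.xG 19 (-t) * (hF.c.xG 16 (t) * (hF.c.xG 15 (t) * (hF.c.xG 17 (t) * (hF.c.xG 20 (-t) * (hF.c.xG 21 (-t) * (hF.c.xG 22 (-t) * (hF.c.xG 23 (-(t * t) + -(t * t))))))))) := by
  have h := colD (K := K) (key := keyId) (w := [(18,[(1,[])]),(13,[(1,[])]),(12,[(1,[])]),(14,[(1,[0])]),(12,[(-1,[])]),(13,[(-1,[])]),(18,[(-1,[])]),(14,[(-1,[0])])]) (w' := [(19,[(-1,[0])]),(16,[(1,[0])]),(15,[(1,[0])]),(17,[(1,[0])]),(20,[(-1,[0])]),(21,[(-1,[0])]),(22,[(-1,[0])]),(23,[(-1,[0, 0]),(-1,[0, 0])])]) (by decide +kernel) (fun i => [t].getD i 0)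
  simpa [evW, ev, evM, Checks.wordG_cons, Checks.wordG_nil] using h

theorem id_9 (s B0 B1 B2 C0 C1 C2 : K) :
    hF.c.xG 9 (s) * (hF.c.xG 19 (B0) * (hF.c.xG 16 (-B1) * (hF.c.xG 15 (-B2) * (hF.c.xG 17 (C0) * (hF.c.xG 20 (-C1) * (hF.c.xG 21 (-C2) * (hF.c.xG 9 (-s) * (hF.c.xG 21 (C2) * (hF.c.xG 20 (C1) * (hF.c.xG 17 (-C0) * (hF.c.xG 15 (B2) * (hF.c.xG 16 (B1) * (hF.c.xG 19 (-B0)))))))))))))) =
      hF.c.xG 18 (s * B0) * (hF.c.xG 13 (s * B1) * (hF.c.xG 12 (s * B2) * (hF.c.xG 17 (s * (B1 * B2)) * (hF.c.xG 20 (-(s * (B0 * B2))) * (hF.c.xG 21 (-(s * (B0 * B1))) * (hF.c.xG 23 (-(s * (B0 * (B1 * B2)))) * (hF.c.xG 22 (s * (s * (B0 * (B1 * B2))))))))))) := by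
  have h := colD (K := K) (key := keyPhi) (w := [(9,[(1,[0])]),(19,[(1,[1])]),(16,[(-1,[2])]),(15,[(-1,[3])]),(17,[(1,[4])]),(20,[(-1,[5])]),(21,[(-1,[6])]),(9,[(-1,[0])]),(21,[(1,[6])]),(20,[(1,[5])]),(17,[(-1,[4])]),(15,[(1,[3])]),(16,[(1,[2])]),(19,[(-1,[1])])]) (w' := [(18,[(1,[0, 1])]),(13,[(1,[0, 2])]),(12,[(1,[0, 3])]),(17,[(1,[0, 2, 3])]),(20,[(-1,[0, 1, 3])]),(21,[(-1,[0, 1, 2])]),(23,[(-1,[0, 1, 2, 3])]),(22,[(1,[0, 0, 1, 2, 3])])]) (by decide +kernel) (fun i => [s,B0,B1,B2,C0,C1,C2].getD i 0)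
  simpa [evW, ev, evM, Checks.wordG_cons, Checks.wordG_nil] using h

theorem id_y17 (a0 a1 a2 : K) :
    hF.c.xG 18 (1) * (hF.c.xG 13 (1) * (hF.c.xG 12 (1) * (hF.c.xG 17 (a0) * (hF.c.xG 20 (-a1) * (hF.c.xG 21 (-a2) * (hF.c.xG 12 (-1) * (hF.c.xG 13 (-1) * (hF.c.xG 18 (-1))))))))) =
      hF.c.xG 17 (a0) * (hF.c.xG 20 (-a1) * (hF.c.xG 21 (-a2) * (hF.c.xG 22 (-a0 + (-a1 + -a2))))) := by
  have h := colD (K := K) (key := keyId) (w := [(18,[(1,[])]),(13,[(1,[])]),(12,[(1,[])]),(17,[(1,[0])]),(20,[(-1,[1])]),(21,[(-1,[2])]),(12,[(-1,[])]),(13,[(-1,[])]),(18,[(-1,[])])]) (w' := [(17,[(1,[0])]),(20,[(-1,[1])]),(21,[(-1,[2])]),(22,[(-1,[0]),(-1,[1]),(-1,[2])])]) (by decide +kernel) (fun i => [a0,a1,a2].getD i 0)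
  simpa [evW, ev, evM, Checks.wordG_cons, Checks.wordG_nil] using h

theorem id_M (A0 A1 A2 B0 B1 B2 : K) :
    hF.c.xG 18 (1) * (hF.c.xG 13 (1) * (hF.c.xG 12 (1) * (hF.c.xG 19 (A0) * (hF.c.xG 16 (-A1) * (hF.c.xG 15 (-A2) * (hF.c.xG 17 (B0) * (hF.c.xG 20 (-B1) * (hF.c.xG 21 (-B2) * (hF.c.xG 12 (-1) * (hF.c.xG 13 (-1) * (hF.c.xG 18 (-1)))))))))))) =
      hF.c.xG 19 (A0) * (hF.c.xG 16 (-A1) * (hF.c.xG 15 (-A2) * (hF.c.xG 17 (B0 + (-A1 + -A2)) * (hF.c.xG 20 (-B1 + (A2 + A0)) * (hF.c.xG 21 (-B2 + (A0 + A1)) * (hF.c.xG 22 (A0 + (A1 + (A2 + (-B0 + (-B1 + -B2))))) * (hF.c.xG 23 (-(A1 * A2) + (-(A0 * A1) + -(A0 * A2)))))))))) := by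
  have h := colD (K := K) (key := keyId) (w := [(18,[(1,[])]),(13,[(1,[])]),(12,[(1,[])]),(19,[(1,[0])]),(16,[(-1,[1])]),(15,[(-1,[2])]),(17,[(1,[3])]),(20,[(-1,[4])]),(21,[(-1,[5])]),(12,[(-1,[])]),(13,[(-1,[])]),(18,[(-1,[])])]) (w' := [(19,[(1,[0])]),(16,[(-1,[1])]),(15,[(-1,[2])]),(17,[(1,[3]),(-1,[1]),(-1,[2])]),(20,[(-1,[4]),(1,[2]),(1,[0])]),(21,[(-1,[5]),(1,[0]),(1,[1])]),(22,[(1,[0]),(1,[1]),(1,[2]),(-1,[3]),(-1,[4]),(-1,[5])]),(23,[(-1,[1, 2]),(-1,[0, 1]),(-1,[0, 2])])]) (by decide +kernel) (fun i => [A0,A1,A2,B0,B1,B2].getD i 0)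
  simpa [evW, ev, evM, Checks.wordG_cons, Checks.wordG_nil] using h

theorem id_add (A0 A1 A2 B0 B1 B2 a0 a1 a2 b0 b1 b2 : K) :
    hF.c.xG 19 (A0) * (hF.c.xG 16 (-A1) * (hF.c.xG 15 (-A2) * (hF.c.xG 17 (B0) * (hF.c.xG 20 (-B1) * (hF.c.xG 21 (-B2) * (hF.c.xG 19 (a0) * (hF.c.xG 16 (-a1) * (hF.c.xG 15 (-a2) * (hF.c.xG 17 (b0) * (hF.c.xG 20 (-b1) * (hF.c.xG 21 (-b2)))))))))))) =
      hF.c.xG 19 (A0 + a0) * (hF.c.xG 16 (-A1 + -a1) * (hF.c.xG 15 (-A2 + -a2) * (hF.c.xG 17 (B0 + b0) * (hF.c.xG 20 (-B1 + -b1) * (hF.c.xG 21 (-B2 + -b2) * (hF.c.xG 23 (B0 * a0 + (B1 * a1 + B2 * a2)))))))) := by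
  have h := colD (K := K) (key := keyId) (w := [(19,[(1,[0])]),(16,[(-1,[1])]),(15,[(-1,[2])]),(17,[(1,[3])]),(20,[(-1,[4])]),(21,[(-1,[5])]),(19,[(1,[6])]),(16,[(-1,[7])]),(15,[(-1,[8])]),(17,[(1,[9])]),(20,[(-1,[10])]),(21,[(-1,[11])])]) (w' := [(19,[(1,[0]),(1,[6])]),(16,[(-1,[1]),(-1,[7])]),(15,[(-1,[2]),(-1,[8])]),(17,[(1,[3]),(1,[9])]),(20,[(-1,[4]),(-1,[10])]),(21,[(-1,[5]),(-1,[11])]),(23,[(1,[3, 6]),(1,[4, 7]),(1,[5, 8])])]) (by decide +kernel) (fun i => [A0,A1,A2,B0,B1,B2,a0,a1,a2,b0,b1,b2].getD i 0)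
  simpa [evW, ev, evM, Checks.wordG_cons, Checks.wordG_nil] using h

theorem id_17add (a0 a1 a2 b0 b1 b2 : K) :
    hF.c.xG 17 (a0) * (hF.c.xG 20 (-a1) * (hF.c.xG 21 (-a2) * (hF.c.xG 17 (b0) * (hF.c.xG 20 (-b1) * (hF.c.xG 21 (-b2)))))) =
      hF.c.xG 17 (a0 + b0) * (hF.c.xG 20 (-a1 + -b1) * (hF.c.xG 21 (-a2 + -b2))) := by
  have h := colD (K := K) (key := keyId) (w := [(17,[(1,[0])]),(20,[(-1,[1])]),(21,[(-1,[2])]),(17,[(1,[3])]),(20,[(-1,[4])]),(21,[(-1,[5])])]) (w' := [(17,[(1,[0]),(1,[3])]),(20,[(-1,[1]),(-1,[4])]),(21,[(-1,[2]),(-1,[5])])]) (by decide +kernel) (fun i => [a0,a1,a2,b0,b1,b2].getD i 0)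
  simpa [evW, ev, evM, Checks.wordG_cons, Checks.wordG_nil] using h

theorem id_y22 (t : K) :
    hF.c.xG 18 (1) * (hF.c.xG 13 (1) * (hF.c.xG 12 (1) * (hF.c.xG 22 (t) * (hF.c.xG 12 (-1) * (hF.c.xG 13 (-1) * (hF.c.xG 18 (-1))))))) =
      hF.c.xG 22 (t) := by
  have h := colD (K := K) (key := keyId) (w := [(18,[(1,[])]),(13,[(1,[])]),(12,[(1,[])]),(22,[(1,[0])]),(12,[(-1,[])]),(13,[(-1,[])]),(18,[(-1,[])])]) (w' := [(22,[(1,[0])])]) (by decide +kernel) (fun i => [t].getD i 0)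
  simpa [evW, ev, evM, Checks.wordG_cons, Checks.wordG_nil] using h

theorem id_y23 (t : K) :
    hF.c.xG 18 (1) * (hF.c.xG 13 (1) * (hF.c.xG 12 (1) * (hF.c.xG 23 (t) * (hF.c.xG 12 (-1) * (hF.c.xG 13 (-1) * (hF.c.xG 18 (-1))))))) =
      hF.c.xG 23 (t) := by
  have h := colD (K := K) (key := keyId) (w := [(18,[(1,[])]),(13,[(1,[])]),(12,[(1,[])]),(23,[(1,[0])]),(12,[(-1,[])]),(13,[(-1,[])]),(18,[(-1,[])])]) (w' := [(23,[(1,[0])])]) (by decide +kernel) (fun i => [t].getD i 0)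
  simpa [evW, ev, evM, Checks.wordG_cons, Checks.wordG_nil] using h

end Cfsg.Agent.Lib.Chev.TwoGen.D4
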