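import Cfsg.Agent.Lib.ChevGen3.D4

/-!
# Two generators for `³D₄`: the steps
-/

namespace Cfsg.Agent.Lib.Chev.TwoGen.D4

open Cfsg.Lie Matrix
open Cfsg.Agent.Lib.Chev
open Cfsg.Agent.Lib.Chev.TwD4 (hF sc G1_eq J exists_frob3)

set_option maxRecDepth 100000

variable {K : Type*} [Field K] [Fintype K] {f : K ≃+* K}

theorem y_inv : (Y3 f 18 (1 : K))⁻¹ = hF.c.xG 12 (-1) * (hF.c.xG 13 (-1) * hF.c.xG 18 (-1)) := by
  rw [Y18_eq, map_one, map_one, _root_.mul_inv_rev, _root_.mul_inv_rev, hF.c.xG_inv, hF.c.xG_inv, hF.c.xG_inv, _root_.mul_assoc]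

section Steps

variable {c : Fin chevD4.rank → Kˣ} {H : Subgroup (GL chevD4.Idx K)}
  (hf3 : ∀ t, f (f (f t)) = t)
  (hcf : (TwD4.τ f).s (tor RootD4T.R chevD4 c) = tor RootD4T.R chevD4 c)
  (hu : tor RootD4T.R chevD4 c * Y3 f 18 1 ∈ H)
  (h22 : Sat1 hF.c f H 22) (h23 : Sat1 hF.c f H 23)

/-- fixed characters of fixed roots -/
theorem chi_22 (hcf : (TwD4.τ f).s (tor RootD4T.R chevD4 c) = tor RootD4T.R chevD4 c) : f ((chiT chevD4 c 22 : Kˣ) : K) = ((chiT chevD4 c 22 : Kˣ) : K) := by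
  have h := chi_fix f hcf (r := 22) (by decide +kernel)
  have e : rD 22 = 22 := by decide +kernel
  rwa [e] at h

theorem chi_23 (hcf : (TwD4.τ f).s (tor RootD4T.R chevD4 c) = tor RootD4T.R chevD4 c) : f ((chiT chevD4 c 23 : Kˣ) : K) = ((chiT chevD4 c 23 : Kˣ) : K) := by
  have h := chi_fix f hcf (r := 23) (by decide +kernel)
  have e : rD 23 = 23 := by decide +kernel
  rwa [e] at h

theorem chi_14 (hcf : (TwD4.τ f).s (tor RootD4T.R chevD4 c) = tor RootD4T.R chevD4 c) : f ((chiT chevD4 c 14 : Kˣ) : K) = ((chiT chevD4 c 14 : Kˣ) : K) := by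
  have h := chi_fix f hcf (r := 14) (by decide +kernel)
  have e : rD 14 = 14 := by decide +kernel
  rwa [e] at h

include hf3 hcf hu h22

theorem scale17 (A : K) (hA : Y3 f 17 A ∈ H) : Y3 f 17 (((chiT chevD4 c 17 : Kˣ) : K) * A) ∈ H := by
  set tt := tor RootD4T.R chevD4 c with htt
  set y := Y3 f 18 (1 : K) with hy
  set p : K := -A + (-(f A) + -(f (f A))) with hp
  have hpf : f p = p := by
    simp only [hp, map_add, map_neg, hf3]
    ring
  have h1 : y * Y3 f 17 A * y⁻¹ = Y3 f 17 A * hF.c.xG 22 p := by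
    have h3 := id_y17 A (f A) (f (f A))
    rw [hy, y_inv, Y18_eq, map_one, map_one, Y17_eq]
    simp only [_root_.mul_assoc]
    rw [h3]
  have h2 : (tt * y) * Y3 f 17 A * (tt * y)⁻¹ = tt * Y3 f 17 A * tt⁻¹ * (tt * hF.c.xG 22 p * tt⁻¹) := by
    have e1 : (tt * y) * Y3 f 17 A * (tt * y)⁻¹ = tt * (y * Y3 f 17 A * y⁻¹) * tt⁻¹ := by group
    rw [e1, h1]
    group
  rw [htt, Y3_tor f hcf (by decide +kernel), hF.tor_conj_xG c (by decide +kernel)] at h2
  rw [← htt] at h2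
  have h5 : hF.c.xG 22 (((chiT chevD4 c 22 : Kˣ) : K) * p) ∈ H := h22 _ (by rw [map_mul, chi_22 hcf, hpf])
  have h6 := H.mul_mem (H.mul_mem (H.mul_mem hu hA) (H.inv_mem hu)) (H.inv_mem h5)
  rw [h2, mul_inv_cancel_right] at h6
  exact h6

include h23

theorem EE0 (h14 : Sat1 hF.c f H 14) (t : K) (ht : f t = t) :
    Y3 f 19 (((chiT chevD4 c 19 : Kˣ) : K) * (-t)) * Y3 f 17 (((chiT chevD4 c 17 : Kˣ) : K) * t) ∈ H := by
  set tt := tor RootD4T.R chevD4 c with htt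
  set y := Y3 f 18 (1 : K) with hy
  set p : K := -(t * t) + -(t * t) with hp
  have hpf : f p = p := by
    simp only [hp, map_add, map_neg, map_mul, ht]
  have hxt : hF.c.xG 14 (-t) = (hF.c.xG 14 t)⁻¹ := (hF.c.xG_inv _ _).symm
  set W : GL chevD4.Idx K := Y3 f 19 (-t) * (Y3 f 17 t * (hF.c.xG 22 (-t) * hF.c.xG 23 p)) with hW
  have h1 : y * hF.c.xG 14 t * y⁻¹ = W * hF.c.xG 14 t := by
    have h3 := id_yb t
    rw [← hp, hxt] at h3
    have e1 : y * hF.c.xG 14 t * y⁻¹ * (hF.c.xG 14 t)⁻¹ = W := by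
      rw [hy, y_inv, Y18_eq, map_one, map_one, hW, Y19_eq, Y17_eq, map_neg, map_neg, ht, ht, neg_neg]
      simp only [_root_.mul_assoc]
      exact h3
    rw [← e1]
    group
  have h2 : (tt * y) * hF.c.xG 14 t * (tt * y)⁻¹ =
      (tt * Y3 f 19 (-t) * tt⁻¹) * ((tt * Y3 f 17 t * tt⁻¹) * ((tt * hF.c.xG 22 (-t) * tt⁻¹) * (tt * hF.c.xG 23 p * tt⁻¹))) * (tt * hF.c.xG 14 t * tt⁻¹) := by
    have e1 : (tt * y) * hF.c.xG 14 t * (tt * y)⁻¹ = tt * (y * hF.c.xG 14 t * y⁻¹) * tt⁻¹ := by group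
    rw [e1, h1, hW]
    group
  rw [htt, Y3_tor f hcf (by decide +kernel), Y3_tor f hcf (by decide +kernel), hF.tor_conj_xG c (by decide +kernel),
    hF.tor_conj_xG c (by decide +kernel), hF.tor_conj_xG c (by decide +kernel)] at h2
  rw [← htt] at h2
  have h5 : hF.c.xG 22 (((chiT chevD4 c 22 : Kˣ) : K) * (-t)) ∈ H := h22 _ (by rw [map_mul, chi_22 hcf, map_neg, ht])
  have h6 : hF.c.xG 23 (((chiT chevD4 c 23 : Kˣ) : K) * p) ∈ H := h23 _ (by rw [map_mul, chi_23 hcf, hpf])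
  have h7 : hF.c.xG 14 (((chiT chevD4 c 14 : Kˣ) : K) * t) ∈ H := h14 _ (by rw [map_mul, chi_14 hcf, ht])
  have h8 := H.mul_mem (H.mul_mem (H.mul_mem (H.mul_mem hu (h14 t ht)) (H.inv_mem hu)) (H.inv_mem h7)) (H.inv_mem (H.mul_mem h5 h6))
  rw [h2, mul_inv_cancel_right] at h8
  have e9 : ∀ a b d : GL chevD4.Idx K, a * (b * d) * d⁻¹ = a * b := by
    intro a b d
    group
  rw [e9] at h8
  exact h8

omit hu hcf h22 h23 in
theorem EE_add (h23 : Sat1 hF.c f H 23) {A B a b : K} (h1 : Y3 f 19 A * Y3 f 17 B ∈ H) (h2 : Y3 f 19 a * Y3 f 17 b ∈ H) :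
    Y3 f 19 (A + a) * Y3 f 17 (B + b) ∈ H := by
  have h3 := id_add A (f A) (f (f A)) B (f B) (f (f B)) a (f a) (f (f a)) b (f b) (f (f b))
  set p : K := B * a + (f B * f a + f (f B) * f (f a)) with hp
  have hpf : f p = p := by
    simp only [hp, map_add, map_mul, hf3]
    ring
  have h5 := H.mul_mem (H.mul_mem h1 h2) (H.inv_mem (h23 p hpf))
  have e1 : Y3 f 19 A * Y3 f 17 B * (Y3 f 19 a * Y3 f 17 b) = Y3 f 19 (A + a) * Y3 f 17 (B + b) * hF.c.xG 23 p := by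
    rw [Y19_eq, Y19_eq, Y19_eq, Y17_eq, Y17_eq, Y17_eq]
    simp only [_root_.mul_assoc]
    rw [h3]
    simp only [map_add, neg_add]
  rw [e1, mul_inv_cancel_right] at h5
  exact h5

theorem EE_M {A B : K} (h : Y3 f 19 A * Y3 f 17 B ∈ H) :
    Y3 f 19 (((chiT chevD4 c 19 : Kˣ) : K) * A) * Y3 f 17 (((chiT chevD4 c 17 : Kˣ) : K) * (B + (-(f A) + -(f (f A))))) ∈ H := by
  set tt := tor RootD4T.R chevD4 c with htt
  set y := Y3 f 18 (1 : K) with hy
  set D : K := B + (-(f A) + -(f (f A))) with hD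
  set p : K := A + (f A + (f (f A) + (-B + (-(f B) + -(f (f B)))))) with hp
  set p' : K := -(f A * f (f A)) + (-(A * f A) + -(A * f (f A))) with hp'
  have hpf : f p = p := by
    simp only [hp, map_add, map_neg, hf3]
    ring
  have hpf' : f p' = p' := by
    simp only [hp', map_add, map_neg, map_mul, hf3]
    ring
  set E := Y3 f 19 A * Y3 f 17 B with hE
  have h1 : y * E * y⁻¹ = Y3 f 19 A * (Y3 f 17 D * (hF.c.xG 22 p * hF.c.xG 23 p')) := by
    have h3 := id_M A (f A) (f (f A)) B (f B) (f (f B))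
    rw [hy, y_inv, Y18_eq, map_one, map_one, hE, Y19_eq, Y17_eq, Y17_eq, hD]
    simp only [_root_.mul_assoc]
    rw [h3]
    simp only [map_add, map_neg, neg_add, neg_neg, hf3]
    congr 8
  have h2 : (tt * y) * E * (tt * y)⁻¹ =
      (tt * Y3 f 19 A * tt⁻¹) * ((tt * Y3 f 17 D * tt⁻¹) * ((tt * hF.c.xG 22 p * tt⁻¹) * (tt * hF.c.xG 23 p' * tt⁻¹))) := by
    have e1 : (tt * y) * E * (tt * y)⁻¹ = tt * (y * E * y⁻¹) * tt⁻¹ := by group
    rw [e1, h1]
    group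
  rw [htt, Y3_tor f hcf (by decide +kernel), Y3_tor f hcf (by decide +kernel), hF.tor_conj_xG c (by decide +kernel),
    hF.tor_conj_xG c (by decide +kernel)] at h2
  rw [← htt] at h2
  have h5 : hF.c.xG 22 (((chiT chevD4 c 22 : Kˣ) : K) * p) ∈ H := h22 _ (by rw [map_mul, chi_22 hcf, hpf])
  have h6 : hF.c.xG 23 (((chiT chevD4 c 23 : Kˣ) : K) * p') ∈ H := h23 _ (by rw [map_mul, chi_23 hcf, hpf'])
  have h8 := H.mul_mem (H.mul_mem (H.mul_mem hu h) (H.inv_mem hu)) (H.inv_mem (H.mul_mem h5 h6))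
  rw [h2] at h8
  have e9 : ∀ a b d : GL chevD4.Idx K, a * (b * d) * d⁻¹ = a * b := by
    intro a b d
    group
  rw [e9] at h8
  exact h8


/-- The commutator with `x₉`. -/
theorem EE9 (h9 : Sat1 hF.c f H 9) {B C s : K} (hE : Y3 f 19 B * Y3 f 17 C ∈ H) (hs : f s = s) :
    Y3 f 18 (s * B) * Y3 f 17 (s * (f B * f (f B))) ∈ H := by
  have h3 := id_9 s B (f B) (f (f B)) C (f C) (f (f C))
  set N : K := B * (f B * f (f B)) with hN
  have hNf : f N = N := by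
    simp only [hN, map_mul, hf3]
    ring
  have hx := h9 s hs
  have h5 := H.mul_mem (H.mul_mem (H.mul_mem hx hE) (H.inv_mem hx)) (H.inv_mem hE)
  have e1 : hF.c.xG 9 s * (Y3 f 19 B * Y3 f 17 C) * (hF.c.xG 9 s)⁻¹ * (Y3 f 19 B * Y3 f 17 C)⁻¹ =
      Y3 f 18 (s * B) * Y3 f 17 (s * (f B * f (f B))) * (hF.c.xG 23 (-(s * N)) * hF.c.xG 22 (s * (s * N))) := by
    rw [Y18_eq, Y19_eq, Y17_eq, Y17_eq]
    simp only [_root_.mul_inv_rev, hF.c.xG_inv, neg_neg, _root_.mul_assoc, map_mul, hs, hf3]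
    rw [h3]
    have a1 : s * (f (f B) * B) = s * (B * f (f B)) := by ring
    rw [a1]
  rw [e1] at h5
  have h6 : hF.c.xG 23 (-(s * N)) * hF.c.xG 22 (s * (s * N)) ∈ H := by
    refine H.mul_mem (h23 _ ?_) (h22 _ ?_)
    · simp only [map_neg, map_mul, hs, hNf]
    · simp only [map_mul, hs, hNf]
  have h7 := H.mul_mem h5 (H.inv_mem h6)
  rwa [mul_inv_cancel_right] at h7

omit hu hcf h22 h23 hf3 in
theorem line_of_diff {κ χ : K} (hq3 : 3 ≤ Nat.card {t : K // f t = t}) (h : ∀ t : K, f t = t → t ≠ 0 → Y3 f 18 χ * Y3 f 17 (t * κ) ∈ H)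
    (v : K) (hv : f v = v) : Y3 f 17 (v * κ) ∈ H := by
  classical
  by_cases h0 : v = 0
  · rw [h0, zero_mul, Y17_zero]
    exact H.one_mem
  obtain ⟨t', h1, h2, h3⟩ : ∃ t' : K, f t' = t' ∧ t' ≠ 0 ∧ t' ≠ -v := by
    by_contra hne
    push Not at hne
    have h4 : Nat.card {t : K // f t = t} ≤ ({0, -v} : Finset K).card := by
      rw [Nat.card_eq_fintype_card, Fintype.card_subtype]
      apply Finset.card_le_card
      intro x hx
      have hx' : f x = x := (Finset.mem_filter.1 hx).2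
      by_cases hx0 : x = 0
      · simp [hx0]
      · simp [hne x hx' hx0]
    have h5 : ({0, -v} : Finset K).card ≤ 2 := Finset.card_le_two
    omega
  have h4 : v + t' ≠ 0 := by
    intro h5
    apply h3
    linear_combination h5
  have h5 := h (v + t') (by rw [map_add, hv, h1]) h4
  have h6 := h t' h1 h2
  have h7 := H.mul_mem (H.inv_mem h6) h5
  have e1 : (Y3 f 18 χ * Y3 f 17 (t' * κ))⁻¹ * (Y3 f 18 χ * Y3 f 17 ((v + t') * κ)) = Y3 f 17 (v * κ) := by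
    have e2 : (v + t') * κ = t' * κ + v * κ := by ring
    rw [e2, Y17_add]
    group
  rwa [e1] at h7

end Steps

/-! ### Fields -/

section Fields

theorem gen_norm3 {z : Kˣ} (hz : ∀ x : Kˣ, x ∈ Subgroup.zpowers z) {q : ℕ} (hq : 2 ≤ q) (hK : Fintype.card K = q ^ 3)
    (u : Kˣ) (hu : u ^ q = u) : ∃ n : ℕ, (z * z ^ q * (z ^ q) ^ q) ^ n = u := by
  have h1 : u ∈ Submonoid.powers z := mem_powers_iff_mem_zpowers.2 (hz u)
  obtain ⟨m, rfl⟩ := h1
  have h2 : z ^ (m * (q - 1)) = 1 := by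
    have h3 : z ^ (m * q) = z ^ m := by rw [pow_mul]; exact hu
    have h4 : m * q = m * (q - 1) + m := by
      obtain ⟨k, rfl⟩ : ∃ k, q = k + 1 := ⟨q - 1, by omega⟩
      simp only [Nat.add_sub_cancel]
      ring
    rw [h4, pow_add] at h3
    exact mul_eq_right.1 h3
  have h3 := orderOf_dvd_of_pow_eq_one h2
  rw [order_gen hz, hK] at h3
  have h4 : q ^ 3 - 1 = (1 + q + q * q) * (q - 1) := by
    obtain ⟨k, rfl⟩ : ∃ k, q = k + 1 := ⟨q - 1, by omega⟩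
    simp only [Nat.add_sub_cancel]
    have : (k + 1) ^ 3 = (1 + (k + 1) + (k + 1) * (k + 1)) * k + 1 := by ring
    omega
  rw [h4] at h3
  have h5 : 1 + q + q * q ∣ m := Nat.dvd_of_mul_dvd_mul_right (by omega) h3
  obtain ⟨n, rfl⟩ := h5
  refine ⟨n, ?_⟩
  show (z * z ^ q * (z ^ q) ^ q) ^ n = z ^ ((1 + q + q * q) * n)
  rw [pow_mul]
  congr 1
  rw [← pow_mul, pow_add, pow_add, pow_one]

theorem gen_sq_ne3 {z : Kˣ} (hz : ∀ x : Kˣ, x ∈ Subgroup.zpowers z) {q : ℕ} (hq : 2 ≤ q) (hK : Fintype.card K = q ^ 3) : z ^ 2 ≠ 1 := by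
  intro h
  have h1 := orderOf_dvd_of_pow_eq_one h
  rw [order_gen hz, hK] at h1
  have h2 := Nat.le_of_dvd (by norm_num) h1
  have h3 : 8 ≤ q ^ 3 := by
    calc 8 = 2 ^ 3 := by norm_num
      _ ≤ q ^ 3 := Nat.pow_le_pow_left hq 3
  omega

theorem gen_frob3 {z : Kˣ} (hz : ∀ x : Kˣ, x ∈ Subgroup.zpowers z) {q : ℕ} (hq : 2 ≤ q) (hK : Fintype.card K = q ^ 3)
    (hne : (z ^ q) ^ 2 = z ^ 2) : False := by
  have h1 : z ^ (2 * (q - 1)) = 1 := by
    have h2 : z ^ (q * 2) = z ^ 2 := by rw [pow_mul, hne]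
    have h3 : q * 2 = 2 * (q - 1) + 2 := by omega
    rw [h3, pow_add] at h2
    exact mul_eq_right.1 h2
  have h2 := orderOf_dvd_of_pow_eq_one h1
  rw [order_gen hz, hK] at h2
  have h3 := Nat.le_of_dvd (by omega) h2
  have h4 : 2 * q ≤ q * q := Nat.mul_le_mul_right q hq
  have h5 : q * q * 2 ≤ q * q * q := Nat.mul_le_mul_left (q * q) hq
  have h6 : q ^ 3 = q * q * q := by ring
  have h7 : 1 ≤ q * q := by nlinarith
  omega

/-- The choice of a generator. -/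
theorem exists_gen {q : ℕ} (hK : Fintype.card K = q ^ 3) :
    ∃ z : Kˣ, (∀ x, x ∈ Subgroup.zpowers z) ∧ (q = 2 → (z : K) ^ 3 = z + 1) := by
  obtain ⟨z, hz⟩ := IsCyclic.exists_generator (α := Kˣ)
  by_cases hq : q = 2
  · subst hq
    have hK8 : Fintype.card K = 8 := by rw [hK]; norm_num
    have h2 : (2 : K) = 0 := by
      have h3 : ringChar K = 2 := by
        rw [FiniteField.even_card_iff_char_two, hK8]
      have := ringChar.of_eq h3
      have h4 := CharP.cast_eq_zero K 2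
      exact_mod_cast h4
    have h7 : (z : K) ^ 7 = 1 := by
      have h8 := FiniteField.pow_card_sub_one_eq_one (z : K) z.ne_zero
      rwa [hK8] at h8
    have hz1 : (z : K) + 1 ≠ 0 := by
      intro h0
      have h3 : (z : K) = 1 := by linear_combination h0 - h2
      have h4 : z = 1 := Units.ext h3
      subst h4
      have h5 : ∀ x : Kˣ, x = 1 := fun x => by
        obtain ⟨k, hk⟩ := Subgroup.mem_zpowers_iff.1 (hz x)
        rw [← hk]
        simp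
      have hcard : Nat.card Kˣ = 1 := Nat.card_eq_one_iff_unique.2 ⟨⟨fun a b => by rw [h5 a, h5 b]⟩, ⟨1⟩⟩
      classical
      rw [Nat.card_eq_fintype_card, Fintype.card_units, hK8] at hcard
      omega
    have h3 : ((z : K) + 1) * (((z : K) ^ 3 + z + 1) * ((z : K) ^ 3 + (z : K) ^ 2 + 1)) = 0 := by
      have e : ((z : K) + 1) * (((z : K) ^ 3 + z + 1) * ((z : K) ^ 3 + (z : K) ^ 2 + 1)) =
          (z : K) ^ 7 + 1 + 2 * ((z : K) ^ 6 + (z : K) ^ 5 + 2 * (z : K) ^ 4 + 2 * (z : K) ^ 3 + (z : K) ^ 2 + z) := by ring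
      rw [e, h7]
      linear_combination (1 + ((z : K) ^ 6 + (z : K) ^ 5 + 2 * (z : K) ^ 4 + 2 * (z : K) ^ 3 + (z : K) ^ 2 + z)) * h2
    rcases mul_eq_zero.1 ((mul_eq_zero.1 h3).resolve_left hz1) with h4 | h4
    · refine ⟨z, hz, fun _ => ?_⟩
      linear_combination h4 - ((z : K) + 1) * h2
    · refine ⟨z⁻¹, ?_, fun _ => ?_⟩
      · intro x
        have h5 := hz x
        rw [Subgroup.mem_zpowers_iff] at h5 ⊢
        obtain ⟨k, hk⟩ := h5
        exact ⟨-k, by rw [_root_.inv_zpow', neg_neg, hk]⟩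
      · have h5 : (z : K) ≠ 0 := z.ne_zero
        rw [Units.val_inv_eq_inv_val]
        field_simp
        linear_combination h4 - ((z : K) ^ 3 + (z : K) ^ 2) * h2 + ((z : K) ^ 3 + (z : K) ^ 2 + 1 - (z : K) ^ 3 - (z : K) ^ 2 - 1) * h2
  · exact ⟨z, hz, fun h => absurd h hq⟩

end Fields

end Cfsg.Agent.Lib.Chev.TwoGen.D4
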