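import Cfsg.Agent.Lib.ChevGen3.D4M

/-!
# Two generators for `³D₄`
-/

namespace Cfsg.Agent.Lib.Chev.TwoGen.D4

open Cfsg.Lie Matrix
open Cfsg.Agent.Lib.Chev
open Cfsg.Agent.Lib.Chev.TwD4 (hF sc G1_eq J exists_frob3)

set_option maxRecDepth 100000

variable {K : Type*} [Field K] [Fintype K]

/-- the word -/
def w4 : List ℕ := [0, 2, 3, 1]

theorem hco : ∀ j < 4, (chevD4.coroot.getD 18 #[]).getD (TwTabD4.S.p j) 0 = (chevD4.coroot.getD 12 #[]).getD j 0 ∧
    (chevD4.coroot.getD 13 #[]).getD (TwTabD4.S.p j) 0 = (chevD4.coroot.getD 18 #[]).getD j 0 ∧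
    (chevD4.coroot.getD 12 #[]).getD (TwTabD4.S.p j) 0 = (chevD4.coroot.getD 13 #[]).getD j 0 := by decide +kernel

/-- The case of the field with eight elements. -/
theorem line_q2 {f : K ≃+* K} {c : Fin chevD4.rank → Kˣ} {H : Subgroup (GL chevD4.Idx K)}
    (hf3 : ∀ t, f (f (f t)) = t)
    (hcf : (TwD4.τ f).s (tor RootD4T.R chevD4 c) = tor RootD4T.R chevD4 c)
    (hu : tor RootD4T.R chevD4 c * Y3 f 18 1 ∈ H)
    (h22 : Sat1 hF.c f H 22) (h23 : Sat1 hF.c f H 23) (h14 : Sat1 hF.c f H 14)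
    {Z : K} (h2 : (2 : K) = 0) (hz3 : Z ^ 3 = Z + 1) (hfZ : f Z = Z ^ 2)
    (hχ19 : ((chiT chevD4 c 19 : Kˣ) : K) = Z ^ 2) (hχ17 : ((chiT chevD4 c 17 : Kˣ) : K) = Z ^ 2 + Z + 1) :
    Y3 f 17 (Z + 1) ∈ H := by
  have hM := fun {A B : K} (h : Y3 f 19 A * Y3 f 17 B ∈ H) => EE_M hf3 hcf hu h22 h23 h
  rw [hχ19, hχ17] at hM
  have hv0 : Y3 f 19 (Z ^ 2) * Y3 f 17 (Z ^ 2 + Z + 1) ∈ H := by
    have h := EE0 hf3 hcf hu h22 h23 h14 (1 : K) (map_one f)
    rw [hχ19, hχ17, mul_one] at h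
    have e : Z ^ 2 * -1 = Z ^ 2 := by linear_combination (-(Z ^ 2)) * h2
    rwa [e] at h
  have hv1 : Y3 f 19 (Z ^ 2 + Z) * Y3 f 17 Z ∈ H := by
    have h := hM hv0
    simp only [map_pow, hfZ] at h
    have e1 : Z ^ 2 * Z ^ 2 = Z ^ 2 + Z := by
      linear_combination ((1) * Z ^ 1) * hz3 + (0) * h2
    have e2 : (Z ^ 2 + Z + 1) * (Z ^ 2 + Z + 1 + (-((Z ^ 2) ^ 2) + -(((Z ^ 2) ^ 2) ^ 2))) = Z := by
      linear_combination ((-7) * Z ^ 0 + (-6) * Z ^ 1 + (-5) * Z ^ 2 + (-4) * Z ^ 3 + (-2) * Z ^ 4 + (-2) * Z ^ 5 + (-1) * Z ^ 6 + (-1) * Z ^ 7) * hz3 + ((-3) * Z ^ 0 + (-6) * Z ^ 1 + (-4) * Z ^ 2) * h2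
    rwa [e1, e2] at h
  have hv2 : Y3 f 19 (Z ^ 2 + 1) * Y3 f 17 1 ∈ H := by
    have h := hM hv1
    simp only [map_pow, map_add, hfZ] at h
    have e1 : Z ^ 2 * (Z ^ 2 + Z) = Z ^ 2 + 1 := by
      linear_combination ((1) * Z ^ 0 + (1) * Z ^ 1) * hz3 + ((1) * Z ^ 1) * h2
    have e2 : (Z ^ 2 + Z + 1) * (Z + (-((Z ^ 2) ^ 2 + Z ^ 2) + -(((Z ^ 2) ^ 2) ^ 2 + (Z ^ 2) ^ 2))) = 1 := by
      linear_combination ((-11) * Z ^ 0 + (-10) * Z ^ 1 + (-6) * Z ^ 2 + (-5) * Z ^ 3 + (-2) * Z ^ 4 + (-2) * Z ^ 5 + (-1) * Z ^ 6 + (-1) * Z ^ 7) * hz3 + ((-6) * Z ^ 0 + (-10) * Z ^ 1 + (-8) * Z ^ 2) * h2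
    rwa [e1, e2] at h
  have hv3 : Y3 f 19 Z * Y3 f 17 (Z ^ 2 + Z) ∈ H := by
    have h := hM hv2
    simp only [map_pow, map_add, map_one, hfZ] at h
    have e1 : Z ^ 2 * (Z ^ 2 + 1) = Z := by
      linear_combination ((1) * Z ^ 1) * hz3 + ((1) * Z ^ 2) * h2
    have e2 : (Z ^ 2 + Z + 1) * (1 + (-((Z ^ 2) ^ 2 + 1) + -(((Z ^ 2) ^ 2) ^ 2 + 1))) = Z ^ 2 + Z := by
      linear_combination ((-9) * Z ^ 0 + (-7) * Z ^ 1 + (-5) * Z ^ 2 + (-4) * Z ^ 3 + (-2) * Z ^ 4 + (-2) * Z ^ 5 + (-1) * Z ^ 6 + (-1) * Z ^ 7) * hz3 + ((-5) * Z ^ 0 + (-9) * Z ^ 1 + (-7) * Z ^ 2) * h2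
    rwa [e1, e2] at h
  have h01 := EE_add hf3 h23 hv0 hv1
  have h013 := EE_add hf3 h23 h01 hv3
  have e1 : Z ^ 2 + (Z ^ 2 + Z) + Z = 0 := by
    linear_combination (0) * hz3 + ((1) * Z ^ 1 + (1) * Z ^ 2) * h2
  have e2 : Z ^ 2 + Z + 1 + Z + (Z ^ 2 + Z) = Z + 1 := by
    linear_combination (0) * hz3 + ((1) * Z ^ 1 + (1) * Z ^ 2) * h2
  rw [e1, e2] at h013
  have e3 : Y3 f 19 (0 : K) = 1 := by
    rw [Y19_eq]
    simp
  rwa [e3, one_mul] at h013

/-- three commuting root elements -/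
theorem tor_mul_three (c : Fin chevD4.rank → Kˣ) {s1 s2 s3 : ℕ} (h1 : s1 < chevD4.nroots) (h2 : s2 < chevD4.nroots) (h3 : s3 < chevD4.nroots)
    (n1 : chiT chevD4 c s1 ≠ 1) (n2 : chiT chevD4 c s2 ≠ 1) (n3 : chiT chevD4 c s3 ≠ 1)
    (c12 : ∀ u v : K, Commute (hF.c.xG s1 u) (hF.c.xG s2 v)) (c13 : ∀ u v : K, Commute (hF.c.xG s1 u) (hF.c.xG s3 v))
    (c23 : ∀ u v : K, Commute (hF.c.xG s2 u) (hF.c.xG s3 v)) :
    (tor RootD4T.R chevD4 c * (hF.c.xG s1 (1 : K) * (hF.c.xG s2 (1 : K) * hF.c.xG s3 (1 : K)))) ^ (Fintype.card K - 1) = 1 := by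
  obtain ⟨k1, hk1⟩ := tor_mul_x_eq hF c h1 n1
  obtain ⟨k2, hk2⟩ := tor_mul_x_eq hF c h2 n2
  obtain ⟨k3, hk3⟩ := tor_mul_x_eq hF c h3 n3
  set tt := tor RootD4T.R chevD4 c with htt
  set g : GL chevD4.Idx K := hF.c.xG s1 (-k1) * (hF.c.xG s2 (-k2) * hF.c.xG s3 (-k3)) with hg
  have hginv : g⁻¹ = hF.c.xG s3 k3 * (hF.c.xG s2 k2 * hF.c.xG s1 k1) := by
    rw [hg, _root_.mul_inv_rev, _root_.mul_inv_rev, hF.c.xG_inv, hF.c.xG_inv, hF.c.xG_inv, neg_neg, neg_neg, neg_neg, _root_.mul_assoc]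
  have h4 : tt * (hF.c.xG s1 (1 : K) * (hF.c.xG s2 (1 : K) * hF.c.xG s3 (1 : K))) = g * tt * g⁻¹ := by
    -- move the factors one at a time
    have e1 : tt * hF.c.xG s1 (1 : K) = hF.c.xG s1 (-k1) * tt * hF.c.xG s1 k1 := hk1
    have e2 : tt * hF.c.xG s2 (1 : K) = hF.c.xG s2 (-k2) * tt * hF.c.xG s2 k2 := hk2
    have e3 : tt * hF.c.xG s3 (1 : K) = hF.c.xG s3 (-k3) * tt * hF.c.xG s3 k3 := hk3
    rw [hginv, hg]
    have c21 : Commute (hF.c.xG s1 k1) (hF.c.xG s2 (1 : K)) := c12 _ _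
    have c31 : Commute (hF.c.xG s1 k1) (hF.c.xG s3 (1 : K)) := c13 _ _
    have c32 : Commute (hF.c.xG s2 k2) (hF.c.xG s3 (1 : K)) := c23 _ _
    have c4 : Commute (hF.c.xG s1 k1) (hF.c.xG s3 k3) := c13 _ _
    have c5 : Commute (hF.c.xG s2 k2) (hF.c.xG s3 k3) := c23 _ _
    have c6 : Commute (hF.c.xG s1 k1) (hF.c.xG s2 k2) := c12 _ _
    calc tt * (hF.c.xG s1 1 * (hF.c.xG s2 1 * hF.c.xG s3 1))
        = (tt * hF.c.xG s1 1) * (hF.c.xG s2 1 * hF.c.xG s3 1) := by group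
      _ = hF.c.xG s1 (-k1) * (tt * (hF.c.xG s1 k1 * hF.c.xG s2 1)) * hF.c.xG s3 1 := by rw [e1]; group
      _ = hF.c.xG s1 (-k1) * (tt * hF.c.xG s2 1) * (hF.c.xG s1 k1 * hF.c.xG s3 1) := by rw [c21.eq]; group
      _ = hF.c.xG s1 (-k1) * hF.c.xG s2 (-k2) * (tt * (hF.c.xG s2 k2 * hF.c.xG s1 k1 * hF.c.xG s3 1)) := by rw [e2]; group
      _ = hF.c.xG s1 (-k1) * hF.c.xG s2 (-k2) * (tt * (hF.c.xG s3 1 * (hF.c.xG s2 k2 * hF.c.xG s1 k1))) := by
          congr 2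
          rw [_root_.mul_assoc, c31.eq, ← _root_.mul_assoc, c32.eq, _root_.mul_assoc]
      _ = hF.c.xG s1 (-k1) * hF.c.xG s2 (-k2) * ((tt * hF.c.xG s3 1) * (hF.c.xG s2 k2 * hF.c.xG s1 k1)) := by group
      _ = hF.c.xG s1 (-k1) * (hF.c.xG s2 (-k2) * hF.c.xG s3 (-k3)) * tt * (hF.c.xG s3 k3 * (hF.c.xG s2 k2 * hF.c.xG s1 k1)) := by
          rw [e3]; group
  rw [h4, conj_pow, tor_pow_card]
  simp

/-- The main theorem. -/
theorem two_gen_3D4 {q : ℕ} (hq : IsPrimePow q) (hK : Fintype.card K = q ^ 3) :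
    ∃ a b : ↥(twistedD4 K q), Subgroup.closure ({a, b} : Set ↥(twistedD4 K q)) = ⊤ := by
  classical
  have hq2 : 2 ≤ q := hq.two_le
  obtain ⟨f, hf, hf3'⟩ := exists_frob3 hq hK
  have hf3 : ∀ t, f (f (f t)) = t := hf3'
  have hsc := sc f
  have hG1 := G1_eq f hf hf3'
  rw [← hG1]
  obtain ⟨z, hz, hz8⟩ := exists_gen (K := K) hK
  set U := unitsF f with hU
  have hUUU : U (U (U z)) = z := Units.ext (hf3 _)
  have hUq : U z = z ^ q := by
    apply Units.ext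
    rw [hU, unitsF_val, Units.val_pow_eq_pow_val, hf]
  set c : Fin chevD4.rank → Kˣ := cG chevD4 18 z * cG chevD4 13 (U z) * cG chevD4 12 (U (U z)) with hc
  have hcfix : ∀ j, c ((TwD4.τ f).π j) = U (c j) := by
    intro j
    have hj : (((TwD4.τ f).π j : Fin chevD4.rank) : ℕ) = TwTabD4.S.p j := hsc.τπ j j.2
    obtain ⟨h1, h2, h3⟩ := hco j j.2
    simp only [hc, Pi.mul_apply, cG, hj, h1, h2, h3, map_mul, map_zpow, hUUU]
    ac_rfl
  have htG : tor RootD4T.R chevD4 c ∈ hsc.G1 :=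
    hsc.tor_mem_of_fixed (reps := [0, 1]) (by decide) (by decide +kernel) (by decide +kernel) hcfix
  have hfixed : ∀ g ∈ hsc.G1, (TwD4.τ f).s g = g := fun g hg => (hsc.G1_le_Fx hg).2
  have hcf := hfixed _ htG
  have hchi : ∀ r, chiT chevD4 c r = z ^ pz chevD4 18 r * (U z) ^ pz chevD4 13 r * (U (U z)) ^ pz chevD4 12 r := by
    intro r
    rw [hc, chiT_mul, chiT_mul, chiT_cG, chiT_cG, chiT_cG]
  have hw : ∀ i ∈ w4, i < chevD4.rank := by decide
  have hbG : nW hF (F := K) w4 ∈ hsc.G1 := by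
    have h0 := hsc.nC_mem (i := 0) (by decide)
    have h1 := hsc.nC_mem (i := 1) (by decide)
    have e : nW hF (F := K) w4 = ((TwD4.J 0).map hF.nS).prod * ((TwD4.J 1).map hF.nS).prod := by
      simp [nW, w4, TwD4.J, TwWD4.gen, _root_.mul_assoc]
    rw [e]
    exact Subgroup.mul_mem _ h0 h1
  have hYs : Y3 f 18 (1 : K) ∈ hsc.G1 := by
    have h : hF.c.wordG (cw TwTabD4.S.r f (chevD4.simple (TwD4.A 0)) (TwD4.dd 0) 1) ∈ hsc.G1 :=
      Subgroup.subset_closure ⟨0, by decide, 1, hf3' 1, Or.inl rfl⟩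
    have e1 : chevD4.simple (TwD4.A 0) = 18 := by decide +kernel
    rw [e1] at h
    have e2 : hF.c.wordG (cw TwTabD4.S.r f 18 (TwD4.dd 0) (1 : K)) = Y3 f 18 (1 : K) := by
      have e3 : TwTabD4.S.r 18 = 13 := by decide +kernel
      have e4 : TwTabD4.S.r 13 = 12 := by decide +kernel
      rw [Y18_eq]
      show hF.c.wordG [(18, (1 : K)), (TwTabD4.S.r 18, f 1), (TwTabD4.S.r (TwTabD4.S.r 18), f (f 1))] = _
      rw [e3, e4]
      simp [Checks.wordG_cons, Checks.wordG_nil]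
    rwa [e2] at h
  have hX14 : hF.c.xG 14 (1 : K) ∈ hsc.G1 := by
    have h : hF.c.wordG (cw TwTabD4.S.r f (chevD4.simple (TwD4.A 1)) (TwD4.dd 1) 1) ∈ hsc.G1 :=
      Subgroup.subset_closure ⟨1, by decide, 1, map_one f, Or.inl rfl⟩
    have e1 : chevD4.simple (TwD4.A 1) = 14 := by decide +kernel
    rw [e1] at h
    have e2 : hF.c.wordG (cw TwTabD4.S.r f 14 (TwD4.dd 1) (1 : K)) = hF.c.xG 14 (1 : K) := by
      show hF.c.wordG [(14, (1 : K))] = _
      simp [Checks.wordG_cons, Checks.wordG_nil]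
    rwa [e2] at h
  have hXl : hF.c.xG 23 (1 : K) ∈ hsc.G1 := by
    have h := one_iter hF hw hbG (s := 14) (by decide +kernel) hX14 5
    have e : (wAct TabD4.X w4)^[5] 14 = 23 := by decide +kernel
    rwa [e] at h
  set tt := tor RootD4T.R chevD4 c with htt
  set y := Y3 f 18 (1 : K) with hy
  set a : GL chevD4.Idx K := tt * y * hF.c.xG 23 (1 : K) with ha
  have haG : a ∈ hsc.G1 := Subgroup.mul_mem _ (Subgroup.mul_mem _ htG hYs) hXl
  set H := Subgroup.closure ({a, nW hF (F := K) w4} : Set (GL chevD4.Idx K)) with hH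
  have haH : a ∈ H := mem_left
  have hbH : nW hF (F := K) w4 ∈ H := mem_right
  have hbf := hfixed _ hbG
  have hpz : pz chevD4 18 23 = 0 ∧ pz chevD4 13 23 = 0 ∧ pz chevD4 12 23 = 0 ∧
      pz chevD4 18 18 = 2 ∧ pz chevD4 13 18 = 0 ∧ pz chevD4 12 18 = 0 ∧
      pz chevD4 18 13 = 0 ∧ pz chevD4 13 13 = 2 ∧ pz chevD4 12 13 = 0 ∧
      pz chevD4 18 12 = 0 ∧ pz chevD4 13 12 = 0 ∧ pz chevD4 12 12 = 2 ∧
      pz chevD4 18 22 = 1 ∧ pz chevD4 13 22 = 1 ∧ pz chevD4 12 22 = 1 ∧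
      pz chevD4 18 19 = 1 ∧ pz chevD4 13 19 = -1 ∧ pz chevD4 12 19 = -1 ∧
      pz chevD4 18 17 = -1 ∧ pz chevD4 13 17 = 1 ∧ pz chevD4 12 17 = 1 := by decide +kernel
  obtain ⟨p1, p2, p3, p4, p5, p6, p7, p8, p9, p10, p11, p12, p13, p14, p15, p16, p17, p18, p19, p20, p21⟩ := hpz
  have χ23 : chiT chevD4 c 23 = 1 := by
    rw [hchi, p1, p2, p3]
    simp
  have hzs : z ^ 2 ≠ 1 := gen_sq_ne3 hz hq2 hK
  have hUzs : (U z) ^ 2 ≠ 1 := by
    intro h
    apply hzs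
    have h1 := congrArg U (congrArg U h)
    rw [map_pow, map_pow, hUUU, map_one, map_one] at h1
    exact h1
  have hUUzs : (U (U z)) ^ 2 ≠ 1 := by
    intro h
    apply hzs
    have h1 := congrArg U h
    rw [map_pow, hUUU, map_one] at h1
    exact h1
  have χ18 : chiT chevD4 c 18 ≠ 1 := by
    rw [hchi, p4, p5, p6]
    simpa using hzs
  have χ13 : chiT chevD4 c 13 ≠ 1 := by
    rw [hchi, p7, p8, p9]
    simpa using hUzs
  have χ12 : chiT chevD4 c 12 ≠ 1 := by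
    rw [hchi, p10, p11, p12]
    simpa using hUUzs
  have hyeq : y = hF.c.xG 18 (1 : K) * (hF.c.xG 13 (1 : K) * hF.c.xG 12 (1 : K)) := by
    rw [hy, Y18_eq, map_one, map_one]
  have hupow : (tt * y) ^ (Fintype.card K - 1) = 1 := by
    rw [hyeq]
    exact tor_mul_three c (by decide +kernel) (by decide +kernel) (by decide +kernel) χ18 χ13 χ12
      (commute_of_nil hF (by decide +kernel) (by decide +kernel) (by decide +kernel) (by decide +kernel) (by decide +kernel))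
      (commute_of_nil hF (by decide +kernel) (by decide +kernel) (by decide +kernel) (by decide +kernel) (by decide +kernel))
      (commute_of_nil hF (by decide +kernel) (by decide +kernel) (by decide +kernel) (by decide +kernel) (by decide +kernel))
  have hyconj : ∀ r t, (∀ t : K, hF.c.xG 18 1 * (hF.c.xG 13 1 * (hF.c.xG 12 1 * (hF.c.xG r t * (hF.c.xG 12 (-1) * (hF.c.xG 13 (-1) * hF.c.xG 18 (-1)))))) = hF.c.xG r t) →
      y * hF.c.xG r t * y⁻¹ = hF.c.xG r t := by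
    intro r t h
    rw [hy, y_inv, Y18_eq, map_one, map_one]
    simp only [_root_.mul_assoc]
    exact h t
  have hcomm23 : Commute (tt * y) (hF.c.xG 23 (1 : K)) := by
    have h1 : Commute tt (hF.c.xG 23 (1 : K)) := by
      have h2 := hF.tor_mul_xG c (s := 23) (by decide +kernel) (1 : K)
      rw [χ23, Units.val_one, one_mul] at h2
      exact h2
    have h2 : Commute y (hF.c.xG 23 (1 : K)) := mul_inv_eq_iff_eq_mul.1 (hyconj 23 1 id_y23)
    exact h1.mul_left h2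
  obtain ⟨hx23, huH⟩ := extract (hC := hF.c) rfl hcomm23 hupow haH
  -- the fixed roots
  have hx22 : hF.c.xG 22 (1 : K) ∈ H := by
    have h := one_iter hF hw hbH (s := 23) (by decide +kernel) hx23 5
    have e : (wAct TabD4.X w4)^[5] 23 = 22 := by decide +kernel
    rwa [e] at h
  have hUUq : U (U z) = (z ^ q) ^ q := by rw [hUq, map_pow, hUq]
  have hχ22 : chiT chevD4 c 22 = z * z ^ q * (z ^ q) ^ q := by
    rw [hchi, p13, p14, p15, zpow_one, zpow_one, zpow_one, hUUq, hUq]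
  have hconj22 : ∀ t : K, (tt * y) * hF.c.xG 22 t * (tt * y)⁻¹ = hF.c.xG 22 (((chiT chevD4 c 22 : Kˣ) : K) * t) := by
    intro t
    have e1 : (tt * y) * hF.c.xG 22 t * (tt * y)⁻¹ = tt * (y * hF.c.xG 22 t * y⁻¹) * tt⁻¹ := by group
    rw [e1, hyconj 22 t id_y22, htt, hF.tor_conj_xG c (by decide +kernel)]
  have hS22 : Sat1 hF.c f H 22 := by
    intro t ht
    by_cases h0 : t = 0
    · rw [h0, hF.c.xG_zero]
      exact H.one_mem
    · have hut : (Units.mk0 t h0) ^ q = Units.mk0 t h0 := by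
        apply Units.ext
        rw [Units.val_pow_eq_pow_val, Units.val_mk0, ← hf, ht]
      obtain ⟨n, hn⟩ := gen_norm3 hz hq2 hK _ hut
      have h1 : t = ((chiT chevD4 c 22 ^ n : Kˣ) : K) := by
        rw [hχ22, hn, Units.val_mk0]
      rw [h1]
      clear h1 hn
      induction n with
      | zero => simpa using hx22
      | succ n ih =>
        have h3 := H.mul_mem (H.mul_mem huH ih) (H.inv_mem huH)
        rw [hconj22] at h3
        convert h3 using 2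
        rw [pow_succ, Units.val_mul, mul_comm]
  have hS23 : Sat1 hF.c f H 23 := by
    have h := sat1_iter f hw hbH (s := 22) (by decide +kernel) hS22 1
    have e : (wAct TabD4.X w4)^[1] 22 = 23 := by decide +kernel
    rwa [e] at h
  have hS14 : Sat1 hF.c f H 14 := by
    have h := sat1_iter f hw hbH (s := 22) (by decide +kernel) hS22 2
    have e : (wAct TabD4.X w4)^[2] 22 = 14 := by decide +kernel
    rwa [e] at h
  have hS9 : Sat1 hF.c f H 9 := by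
    have h := sat1_iter f hw hbH (s := 22) (by decide +kernel) hS22 5
    have e : (wAct TabD4.X w4)^[5] 22 = 9 := by decide +kernel
    rwa [e] at h
  have hfix : Nat.card {t : K // f t = t} = q := by
    rw [← card_fix_pow hq hK three_ne_zero]
    apply Nat.card_congr
    exact Equiv.subtypeEquivRight fun t => by rw [hf]
  have hline : ∃ κ : K, κ ≠ 0 ∧ ∀ v : K, f v = v → Y3 f 17 (v * κ) ∈ H := by
    by_cases hq2' : q = 2
    · have hK8 : Fintype.card K = 8 := by rw [hK, hq2']; norm_num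
      have h2 : (2 : K) = 0 := by
        have h3 : ringChar K = 2 := by
          rw [FiniteField.even_card_iff_char_two, hK8]
        have := ringChar.of_eq h3
        have h4 := CharP.cast_eq_zero K 2
        exact_mod_cast h4
      set Z : K := (z : K) with hZ
      have hZ0 : Z ≠ 0 := z.ne_zero
      have hz3 : Z ^ 3 = Z + 1 := hz8 hq2'
      have hfZ : f Z = Z ^ 2 := by rw [hf, hq2']
      have hfv : ∀ t : Kˣ, (U t : Kˣ).val = f t.val := fun t => unitsF_val _ _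
      have hχ19 : ((chiT chevD4 c 19 : Kˣ) : K) = Z ^ 2 := by
        rw [hchi, p16, p17, p18, zpow_one, _root_.zpow_neg_one, _root_.zpow_neg_one]
        simp only [Units.val_mul, Units.val_inv_eq_inv_val, hfv, hfZ, map_pow, ← hZ]
        field_simp
        linear_combination ((-1) * Z ^ 0 + (-1) * Z ^ 1 + (-1) * Z ^ 2 + (-1) * Z ^ 4) * hz3 + ((-1) * Z ^ 1 + (-1) * Z ^ 2) * h2
      have hχ17 : ((chiT chevD4 c 17 : Kˣ) : K) = Z ^ 2 + Z + 1 := by
        rw [hchi, p19, p20, p21, zpow_one, zpow_one, _root_.zpow_neg_one]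
        simp only [Units.val_mul, Units.val_inv_eq_inv_val, hfv, hfZ, map_pow, ← hZ]
        field_simp
        linear_combination ((1) * Z ^ 0 + (1) * Z ^ 2) * hz3 + (0) * h2
      refine ⟨Z + 1, ?_, fun v hv => ?_⟩
      · intro h0
        have h1 : Z = 1 := by linear_combination h0 - h2
        apply hzs
        have h3 : z = 1 := Units.ext h1
        rw [h3, one_pow]
      · have hv2 : v ^ 2 = v := by
          rw [← hq2', ← hf, hv]
        have hv3 : v * (v - 1) = 0 := by linear_combination hv2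
        rcases mul_eq_zero.1 hv3 with h0 | h0
        · rw [h0, zero_mul, Y17_zero]
          exact H.one_mem
        · have h1 : v = 1 := sub_eq_zero.1 h0
          rw [h1, one_mul]
          exact line_q2 hf3 hcf huH hS22 hS23 hS14 h2 hz3 hfZ hχ19 hχ17
    · have hq3 : 3 ≤ q := by omega
      set χ : K := ((chiT chevD4 c 19 : Kˣ) : K) with hχ
      have hχ0 : χ ≠ 0 := Units.ne_zero _
      refine ⟨f χ * f (f χ), mul_ne_zero (by simpa using hχ0) (by simpa using hχ0), fun v hv => ?_⟩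
      refine line_of_diff (χ := -χ) (by rw [hfix]; exact hq3) (fun t ht h0 => ?_) v hv
      have h1 := EE0 hf3 hcf huH hS22 hS23 hS14 t ht
      have hts : f t⁻¹ = t⁻¹ := by rw [map_inv₀, ht]
      have h3 := EE9 hf3 hcf huH hS22 hS23 hS9 h1 hts
      have e1 : t⁻¹ * (χ * -t) = -χ := by
        field_simp
      have e2 : t⁻¹ * (f (χ * -t) * f (f (χ * -t))) = t * (f χ * f (f χ)) := by
        simp only [map_mul, map_neg, ht]
        field_simp
      rwa [e1, e2] at h3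
  obtain ⟨κ, hκ0, hl⟩ := hline
  have hχne : f ((chiT chevD4 c 17 : Kˣ) : K) ≠ ((chiT chevD4 c 17 : Kˣ) : K) := by
    intro h
    have h1 : U (chiT chevD4 c 17) = chiT chevD4 c 17 := Units.ext h
    rw [hchi, p19, p20, p21, zpow_one, zpow_one, _root_.zpow_neg_one, map_mul, map_mul, map_inv, hUUU] at h1
    apply gen_frob3 hz hq2 hK
    rw [← hUq]
    have h3 : U z * U z = z * z := by
      have h4 : (U z)⁻¹ * U (U z) * z = z⁻¹ * U z * U (U z) := h1
      have h5 : (U z)⁻¹ * z = z⁻¹ * U z := by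
        have h6 : (U z)⁻¹ * U (U z) * z = (U z)⁻¹ * z * U (U z) := by
          rw [_root_.mul_assoc, mul_comm (U (U z)), ← _root_.mul_assoc]
        rw [h6] at h4
        exact mul_right_cancel h4
      calc U z * U z = z * (z⁻¹ * U z) * U z := by group
        _ = z * ((U z)⁻¹ * z) * U z := by rw [h5]
        _ = z * z * ((U z)⁻¹ * U z) := by rw [_root_.mul_assoc z, mul_comm ((U z)⁻¹)]; group
        _ = z * z := by group
    rw [sq, sq, h3]
  have hS17 : Sat3 f H 17 := by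
    intro C
    obtain ⟨a', b', d', ha', hb', hd', e⟩ := exists_plane f (by omega) hK hfix hf3 hχne (C * κ⁻¹)
    set χ : K := ((chiT chevD4 c 17 : Kˣ) : K) with hχ
    have e2 : C = a' * κ + χ * (b' * κ) + χ * (χ * (d' * κ)) := by
      have e3 : C = C * κ⁻¹ * κ := by
        rw [_root_.mul_assoc, inv_mul_cancel₀ hκ0, mul_one]
      rw [e3, e]
      ring
    rw [e2, Y17_add, Y17_add]
    have hsc17 := fun A hA => scale17 hf3 hcf huH hS22 A hA
    exact H.mul_mem (H.mul_mem (hl a' ha') (hsc17 _ (hl b' hb'))) (hsc17 _ (hsc17 _ (hl d' hd')))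
  have hS18 : Sat3 f H 18 := by
    have h := sat3_iter f hw hbH hbf (s := 17) (by decide +kernel) hS17 5
    have e : (wAct TabD4.X w4)^[5] 17 = 18 := by decide +kernel
    rwa [e] at h
  have hS5 : Sat3 f H 5 := by
    have h := sat3_iter f hw hbH hbf (s := 17) (by decide +kernel) hS17 2
    have e : (wAct TabD4.X w4)^[2] 17 = 5 := by decide +kernel
    rwa [e] at h
  have hc1 : ∀ t : K, hF.c.wordG [(18, t), (13, f t), (12, f (f t))] ∈ H := by
    intro t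
    have h := hS18 t
    rw [Y18_eq] at h
    simpa [Checks.wordG_cons, Checks.wordG_nil] using h
  have hc2 : ∀ t : K, hF.c.wordG [(5, t), (10, f t), (11, f (f t))] ∈ H := by
    intro t
    have h := hS5 t
    rw [Y5_eq] at h
    simpa [Checks.wordG_cons, Checks.wordG_nil] using h
  have hc5 : ∀ r t, (hF.c.xG r t ∈ H) → hF.c.wordG [(r, t)] ∈ H := by
    intro r t h
    simpa [Checks.wordG_cons, Checks.wordG_nil] using h
  have hr1 : TwTabD4.S.r 18 = 13 ∧ TwTabD4.S.r 13 = 12 ∧ TwTabD4.S.r 5 = 10 ∧ TwTabD4.S.r 10 = 11 := by decide +kernel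
  have e0 : chevD4.simple (TwD4.A 0) = 18 ∧ chevD4.simple (TwD4.A 1) = 14 ∧ chevD4.simple (TwD4.A 2) = 18 ∧ chevD4.simple (TwD4.A 3) = 18 ∧
      chevD4.neg 18 = 5 ∧ chevD4.neg 14 = 9 := by decide +kernel
  have hle : hsc.G1 ≤ H := by
    unfold SCOK.G1
    rw [Subgroup.closure_le]
    rintro g ⟨i, hi, t, ht, rfl | rfl⟩
    · have hi' : i < 4 := hi
      interval_cases i
      · show hF.c.wordG (cw _ f (chevD4.simple (TwD4.A 0)) 3 t) ∈ H
        rw [e0.1]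
        show hF.c.wordG [(18, t), (TwTabD4.S.r 18, f t), (TwTabD4.S.r (TwTabD4.S.r 18), f (f t))] ∈ H
        rw [hr1.1, hr1.2.1]
        exact hc1 t
      · show hF.c.wordG (cw _ f (chevD4.simple (TwD4.A 1)) 1 t) ∈ H
        rw [e0.2.1]
        exact hc5 14 t (hS14 t ht)
      · show hF.c.wordG (cw _ f (chevD4.simple (TwD4.A 0)) 3 t) ∈ H
        rw [e0.1]
        show hF.c.wordG [(18, t), (TwTabD4.S.r 18, f t), (TwTabD4.S.r (TwTabD4.S.r 18), f (f t))] ∈ H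
        rw [hr1.1, hr1.2.1]
        exact hc1 t
      · show hF.c.wordG (cw _ f (chevD4.simple (TwD4.A 0)) 3 t) ∈ H
        rw [e0.1]
        show hF.c.wordG [(18, t), (TwTabD4.S.r 18, f t), (TwTabD4.S.r (TwTabD4.S.r 18), f (f t))] ∈ H
        rw [hr1.1, hr1.2.1]
        exact hc1 t
    · have hi' : i < 4 := hi
      have e5 : chevD4.neg (chevD4.simple (TwD4.A 0)) = 5 := by rw [e0.1]; exact e0.2.2.2.2.1
      have e9 : chevD4.neg (chevD4.simple (TwD4.A 1)) = 9 := by rw [e0.2.1]; exact e0.2.2.2.2.2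
      have hneg0 : hF.c.wordG (cw TwTabD4.S.r f (chevD4.neg (chevD4.simple (TwD4.A 0))) 3 t) ∈ H := by
        rw [e5]
        show hF.c.wordG [(5, t), (TwTabD4.S.r 5, f t), (TwTabD4.S.r (TwTabD4.S.r 5), f (f t))] ∈ H
        rw [hr1.2.2.1, hr1.2.2.2]
        exact hc2 t
      interval_cases i
      · exact hneg0
      · show hF.c.wordG (cw _ f (chevD4.neg (chevD4.simple (TwD4.A 1))) 1 t) ∈ H
        rw [e9]
        exact hc5 9 t (hS9 t ht)
      · exact hneg0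
      · exact hneg0
  refine ⟨⟨a, haG⟩, ⟨nW hF w4, hbG⟩, ?_⟩
  have h1 : (Subgroup.closure ({⟨a, haG⟩, ⟨nW hF w4, hbG⟩} : Set ↥hsc.G1)).map hsc.G1.subtype = H := by
    rw [MonoidHom.map_closure, hH]
    congr 1
    ext x
    simp [Set.image_insert_eq]
  rw [eq_top_iff]
  intro g _
  have h3 : (g : GL chevD4.Idx K) ∈ (Subgroup.closure ({⟨a, haG⟩, ⟨nW hF w4, hbG⟩} : Set ↥hsc.G1)).map hsc.G1.subtype := by
    rw [h1]
    exact hle g.2
  obtain ⟨g', hg', he⟩ := h3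
  have : g' = g := Subtype.ext he
  rwa [this] at hg'

end Cfsg.Agent.Lib.Chev.TwoGen.D4
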