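import Cfsg.Agent.Lib.ChevGen3.Design
import Cfsg.Agent.Lib.ChevGen3.Fld
import Cfsg.Agent.Lib.Chev.TwE6

/-!
# Two generators for `²E₆(q)`
-/

namespace Cfsg.Agent.Lib.Chev.TwoGen

open Cfsg.Lie Matrix
open Cfsg.Agent.Lib.Chev.TwE6

variable {K : Type*} [Field K] [Fintype K]

set_option maxRecDepth 100000

/-- the signs -/
noncomputable abbrev gE6 : ℕ → ℤ := Trie.find (Int.ofNat 1) TwTabE6.g
/-- the permutation -/
noncomputable abbrev rE6 : ℕ → ℕ := TwTabE6.S.r

theorem twdE6 (f : K ≃+* K) (hff : ∀ t, f (f t) = t) : TwD (τ f) f rE6 gE6 where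
  s_x r hr t := TwTabE6.ok.signTw_s hF TwTabE6.sign_ok TwTabE6.sq_ok TwTabE6.unit_ok TwTabE6.neg_ok f hr t
  ρ_lt := TwTabE6.ok.r_lt
  unit := TwTabE6.unit_ok
  ff := hff

/-- the word -/
def wE6 : List ℕ := [0, 5, 1, 2, 4, 3]
/-- the fixed roots -/
def longsE6 : List ℕ := [0, 1, 2, 6, 8, 11, 18, 20, 24, 25, 27, 32, 39, 44, 46, 47, 51, 53, 60, 63, 65, 69, 70, 71]
/-- the certificate for the fixed roots -/
def esLE6 : List (ℕ × ℕ) := [(18,72),(32,72),(63,72),(69,72),(71,72),(70,72),(53,72),(39,72),(8,72),(2,72),(0,72),(18,70),(60,72),(51,72),(65,72),(44,72),(47,72),(25,72),(11,72),(20,72),(6,72),(27,72),(24,72)]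
/-- the certificate for the classes -/
def esSE6 : List (ℕ × ℕ) := [(19,72),(19,32),(19,46),(19,51),(19,63),(19,69),(19,71),(5,72),(5,60),(5,63),(5,65),(5,69),(5,70),(5,71),(17,71),(4,44),(4,51),(4,53),(4,69),(4,70),(4,71),(23,71),(10,71)]

theorem hcorE6 : ∀ j < 6, (chevE6.coroot.getD 56 #[]).getD (TwTabE6.S.p j) 0 = (chevE6.coroot.getD 36 #[]).getD j 0 ∧
    (chevE6.coroot.getD 36 #[]).getD (TwTabE6.S.p j) 0 = (chevE6.coroot.getD 56 #[]).getD j 0 := by decide +kernel

theorem two_gen_2E6 {q : ℕ} (hq : IsPrimePow q) (hK : Fintype.card K = q ^ 2) :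
    ∃ a b : ↥(twistedE6 K q), Subgroup.closure ({a, b} : Set ↥(twistedE6 K q)) = ⊤ := by
  have hq2 : 2 ≤ q := hq.two_le
  obtain ⟨f, hf⟩ := exists_frob hq hK two_ne_zero
  have hff : ∀ t : K, f (f t) = t := by
    intro t
    rw [hf, hf, ← pow_mul, ← sq, ← hK, FiniteField.pow_card]
  have hf2 : ∀ t : K, f^[2] t = t := hff
  have hT := twdE6 f hff
  have hsc := sc f
  have hG1 := G1_eq f hf hf2
  rw [← hG1]
  obtain ⟨z, hz⟩ := IsCyclic.exists_generator (α := Kˣ)
  set c : Fin chevE6.rank → Kˣ := cG chevE6 56 z * cG chevE6 36 (unitsF f z) with hc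
  have hzff : unitsF f (unitsF f z) = z := Units.ext (hff _)
  have hcfix : ∀ j, c ((τ f).π j) = unitsF f (c j) := by
    intro j
    have hj : (((τ f).π j : Fin chevE6.rank) : ℕ) = TwTabE6.S.p j := hsc.τπ j j.2
    obtain ⟨h1, h2⟩ := hcorE6 j j.2
    simp only [hc, Pi.mul_apply, cG, hj, h1, h2, map_mul, map_zpow, hzff]
    rw [mul_comm]
  have htG : tor RootE6T.R chevE6 c ∈ hsc.G1 :=
    hsc.tor_mem_of_fixed (reps := [0, 1, 2, 3]) (by decide) (by decide +kernel) (by decide +kernel) hcfix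
  have hfixed : ∀ g ∈ hsc.G1, (τ f).s g = g := fun g hg => (hsc.G1_le_Fx hg).2
  have hchi : ∀ r, chiT chevE6 c r = z ^ pz chevE6 56 r * (unitsF f z) ^ pz chevE6 36 r := by
    intro r
    rw [hc, chiT_mul, chiT_cG, chiT_cG]
  have hmemY : ∀ (i : ℕ) (hi : i < chevE6.rank) (t : K), f^[dd i] t = t →
      hF.c.wordG (cw TwTabE6.S.r f (chevE6.simple (A i)) (dd i) t) ∈ hsc.G1 ∧
      hF.c.wordG (cw TwTabE6.S.r f (chevE6.neg (chevE6.simple (A i))) (dd i) t) ∈ hsc.G1 := by
    intro i hi t ht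
    exact ⟨Subgroup.subset_closure ⟨i, hi, t, ht, Or.inl rfl⟩, Subgroup.subset_closure ⟨i, hi, t, ht, Or.inr rfl⟩⟩
  have hw : ∀ i ∈ wE6, i < chevE6.rank := by decide
  have hbG : nW hF (F := K) wE6 ∈ hsc.G1 := by
    have h0 := hsc.nC_mem (i := 0) (by decide)
    have h1 := hsc.nC_mem (i := 1) (by decide)
    have h2 := hsc.nC_mem (i := 2) (by decide)
    have h3 := hsc.nC_mem (i := 3) (by decide)
    have e : nW hF (F := K) wE6 = ((TwE6.J 0).map hF.nS).prod * (((TwE6.J 1).map hF.nS).prod * (((TwE6.J 2).map hF.nS).prod * ((TwE6.J 3).map hF.nS).prod)) := by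
      simp [nW, wE6, TwE6.J, TwWE6.gen, _root_.mul_assoc]
    rw [e]
    exact Subgroup.mul_mem _ h0 (Subgroup.mul_mem _ h1 (Subgroup.mul_mem _ h2 h3))
  have hYs : YY hF.c f rE6 gE6 56 (1 : K) ∈ hsc.G1 := by
    have h := (hmemY 0 (by decide) 1 (hsc.f_one _)).1
    have e : YY hF.c f rE6 gE6 56 (1 : K) = hF.c.wordG (cw TwTabE6.S.r f (chevE6.simple (A 0)) (dd 0) 1) := by
      have e1 : chevE6.simple (A 0) = 56 := by decide +kernel
      have e2 : rE6 56 = 36 := by decide +kernel
      have e3 : gE6 56 = 1 := by decide +kernel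
      have e4 : TwTabE6.S.r 56 = 36 := by decide +kernel
      rw [e1]
      show _ = hF.c.wordG [(56, (1 : K)), (TwTabE6.S.r 56, f 1)]
      unfold YY
      rw [e2, e3, e4, map_one]
      simp [Checks.wordG_cons, Checks.wordG_nil]
    rw [e]
    exact h
  have hXl : hF.c.xG 39 (1 : K) ∈ hsc.G1 := by
    have h := (hmemY 3 (by decide) 1 (hsc.f_one _)).1
    have e1 : chevE6.simple (A 3) = 39 := by decide +kernel
    rw [e1] at h
    have e : hF.c.wordG (cw TwTabE6.S.r f 39 (dd 3) (1 : K)) = hF.c.xG 39 (1 : K) := by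
      show hF.c.wordG [(39, (1 : K))] = _
      simp [Checks.wordG_cons, Checks.wordG_nil]
    rw [e] at h
    exact h
  set a : GL chevE6.Idx K := tor RootE6T.R chevE6 c * YY hF.c f rE6 gE6 56 1 * hF.c.xG 39 (1 : K) with ha
  set b : GL chevE6.Idx K := nW hF wE6 with hb
  have haG : a ∈ hsc.G1 := Subgroup.mul_mem _ (Subgroup.mul_mem _ htG hYs) hXl
  have hbG' : b ∈ hsc.G1 := hbG
  set H := Subgroup.closure ({a, b} : Set (GL chevE6.Idx K)) with hH
  have haH : a ∈ H := mem_left
  have hbH : nW hF (F := K) wE6 ∈ H := mem_right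
  have hp1 : pz chevE6 56 39 = 0 ∧ pz chevE6 36 39 = 0 := by decide +kernel
  have hp2 : pz chevE6 56 56 = 2 ∧ pz chevE6 36 56 = 0 := by decide +kernel
  have hp3 : pz chevE6 56 (rE6 56) = 0 ∧ pz chevE6 36 (rE6 56) = 2 := by decide +kernel
  have hp4 : pz chevE6 56 18 = 1 ∧ pz chevE6 36 18 = 1 := by decide +kernel
  have hp5 : pz chevE6 56 19 = 1 ∧ pz chevE6 36 19 = -1 := by decide +kernel
  have hzq : unitsF f z = z ^ q := by
    apply Units.ext
    rw [unitsF_val, Units.val_pow_eq_pow_val, hf]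
  have hzs : z ^ 2 ≠ 1 := gen_sq_ne hz hq2 hK
  have χl : chiT chevE6 c 39 = 1 := by
    rw [hchi, hp1.1, hp1.2]
    simp
  have χs : chiT chevE6 c 56 ≠ 1 := by
    rw [hchi, hp2.1, hp2.2]
    simpa using hzs
  have χsb : chiT chevE6 c (rE6 56) ≠ 1 := by
    rw [hchi, hp3.1, hp3.2]
    intro h
    apply hzs
    have h1 : (unitsF f z) ^ 2 = 1 := by simpa using h
    have h2 := congrArg (unitsF f) h1
    rw [map_pow, hzff, map_one] at h2
    exact h2
  have hν : ∀ t : K, f t = t → t ≠ 0 → ∃ n : ℕ, ((chiT chevE6 c 18 ^ n : Kˣ) : K) = t := by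
    intro t ht h0
    have hu : (Units.mk0 t h0) ^ q = Units.mk0 t h0 := by
      apply Units.ext
      rw [Units.val_pow_eq_pow_val, Units.val_mk0, ← hf, ht]
    obtain ⟨n, hn⟩ := gen_norm hz hq2 hK _ hu
    refine ⟨n, ?_⟩
    rw [hchi, hp4.1, hp4.2, zpow_one, zpow_one, hzq, hn, Units.val_mk0]
  have hχ0 : f ((chiT chevE6 c 19 : Kˣ) : K) ≠ ((chiT chevE6 c 19 : Kˣ) : K) := by
    intro h
    have h1 : unitsF f (chiT chevE6 c 19) = chiT chevE6 c 19 := Units.ext h
    rw [hchi, hp5.1, hp5.2, zpow_one, _root_.zpow_neg_one, map_mul, map_inv, hzff] at h1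
    apply gen_frob hz hq2 hK
    rw [← hzq]
    have h2 : unitsF f z * unitsF f z = z * z := by
      calc unitsF f z * unitsF f z = (unitsF f z * z⁻¹) * (z * unitsF f z) := by
            rw [_root_.mul_assoc, inv_mul_cancel_left]
        _ = (z * (unitsF f z)⁻¹) * (z * unitsF f z) := by rw [h1]
        _ = z * z := by
            rw [mul_mul_mul_comm, inv_mul_cancel, mul_one]
    rw [sq, sq, h2]
  have hfix : Nat.card {t : K // f t = t} = q := by
    rw [← card_fix_pow hq hK two_ne_zero]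
    apply Nat.card_congr
    exact Equiv.subtypeEquivRight fun t => by rw [hf]
  obtain ⟨hL, hS0⟩ := design_pair (hF := hF) (X := TabE6.X) (R := RootE6T.R) (τ := τ f) (f := f) (ρ' := rE6) (gg := gE6) (H := H) hT hw (hfixed _ hbG)
    (l := 39) (l1 := 18) (s := 56) (β := 8) (k0 := 19) (m := 20) (k1 := 5)
    (by decide +kernel) (by decide +kernel) (by decide +kernel) (by decide +kernel)
    c (hfixed _ htG) (by decide +kernel) χl χs χsb
    (by decide +kernel) (by decide +kernel) (by decide +kernel)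
    (by decide +kernel) (by decide +kernel) (by decide +kernel)
    (by decide +kernel) (by decide +kernel) (by decide +kernel)
    (by decide +kernel)
    (by decide +kernel) (by decide +kernel) (by decide +kernel)
    (by decide +kernel) (by decide +kernel) (by decide +kernel)
    hν esLE6 longsE6 (by decide +kernel)
    (by decide +kernel) (by decide +kernel) (by decide +kernel) (by decide +kernel)
    (c0 := -1) (c0' := 1) (d := -1) (d1 := 1)
    (by decide +kernel) (by decide +kernel) (by decide +kernel) (by decide +kernel)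
    (by decide +kernel) (by decide +kernel)
    (by decide +kernel) (by decide +kernel) (by decide +kernel)
    (by decide +kernel) (by decide +kernel) (by decide +kernel)
    (by decide +kernel) (by decide +kernel)
    (by decide +kernel) (by decide +kernel) (by decide +kernel)
    (by decide +kernel) (by decide +kernel) (by decide +kernel)
    (by decide +kernel) (by decide +kernel) (by decide +kernel)
    (by decide +kernel) (by decide +kernel) (by decide +kernel)
    (by decide +kernel)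
    (by decide +kernel) (by decide +kernel) (by decide +kernel)
    (q := q) (by omega) hK hfix hχ0 haH hbH
  have hSall := runS_sound (H := H) (hF := hF) (X := TabE6.X) (τ := τ f) (f := f) (ρ' := rE6) (gg := gE6) hT hL (ws := [wE6])
    (by simpa using ⟨hw, hbH, hfixed _ hbG⟩) esSE6 (known := [19]) (by simpa using ⟨(by decide +kernel : 19 < chevE6.nroots), hS0⟩)
  have hs56 : Sat2 hF.c f rE6 gE6 H 56 := (hSall 56 (mem_of_memB (by decide +kernel))).2
  have hs42 : Sat2 hF.c f rE6 gE6 H 42 := (hSall 42 (mem_of_memB (by decide +kernel))).2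
  have hs35 : Sat2 hF.c f rE6 gE6 H 35 := (hSall 35 (mem_of_memB (by decide +kernel))).2
  have hs34 : Sat2 hF.c f rE6 gE6 H 34 := (hSall 34 (mem_of_memB (by decide +kernel))).2
  have hl46 : Sat1 hF.c f H 46 := (hL 46 (by decide +kernel)).2
  have hl25 : Sat1 hF.c f H 25 := (hL 25 (by decide +kernel)).2
  have hl39 : Sat1 hF.c f H 39 := (hL 39 (by decide +kernel)).2
  have hl32 : Sat1 hF.c f H 32 := (hL 32 (by decide +kernel)).2
  have hc1 : ∀ t : K, hF.c.wordG [(56, t), (36, f t)] ∈ H := by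
    intro t
    have h := hs56 t
    have e2 : rE6 56 = 36 := by decide +kernel
    have e3 : gE6 56 = 1 := by decide +kernel
    unfold YY at h
    rw [e2, e3] at h
    simpa [Checks.wordG_cons, Checks.wordG_nil] using h
  have hc2 : ∀ t : K, hF.c.wordG [(42, t), (37, f t)] ∈ H := by
    intro t
    have h := hs42 t
    have e2 : rE6 42 = 37 := by decide +kernel
    have e3 : gE6 42 = 1 := by decide +kernel
    unfold YY at h
    rw [e2, e3] at h
    simpa [Checks.wordG_cons, Checks.wordG_nil] using h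
  have hc3 : ∀ t : K, hF.c.wordG [(15, t), (35, f t)] ∈ H := by
    intro t
    have h := hs35 (f t)
    have e2 : rE6 35 = 15 := by decide +kernel
    have e3 : gE6 35 = 1 := by decide +kernel
    unfold YY at h
    rw [e2, e3, hff] at h
    have hcm : Commute (hF.c.xG 35 (f t)) (hF.c.xG 15 t) :=
      commute_of_nil hF (by decide +kernel) (by decide +kernel) (by decide +kernel) (by decide +kernel) (by decide +kernel) _ _
    have h2 : hF.c.wordG [(15, t), (35, f t)] = hF.c.xG 35 (f t) * hF.c.xG 15 t := by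
      rw [hcm.eq]
      simp [Checks.wordG_cons, Checks.wordG_nil]
    rw [h2]
    simpa using h
  have hc4 : ∀ t : K, hF.c.wordG [(29, t), (34, f t)] ∈ H := by
    intro t
    have h := hs34 (f t)
    have e2 : rE6 34 = 29 := by decide +kernel
    have e3 : gE6 34 = 1 := by decide +kernel
    unfold YY at h
    rw [e2, e3, hff] at h
    have hcm : Commute (hF.c.xG 34 (f t)) (hF.c.xG 29 t) :=
      commute_of_nil hF (by decide +kernel) (by decide +kernel) (by decide +kernel) (by decide +kernel) (by decide +kernel) _ _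
    have h2 : hF.c.wordG [(29, t), (34, f t)] = hF.c.xG 34 (f t) * hF.c.xG 29 t := by
      rw [hcm.eq]
      simp [Checks.wordG_cons, Checks.wordG_nil]
    rw [h2]
    simpa using h
  have hc5 : ∀ r t, (hF.c.xG r t ∈ H) → hF.c.wordG [(r, t)] ∈ H := by
    intro r t h
    simpa [Checks.wordG_cons, Checks.wordG_nil] using h
  have hle : hsc.G1 ≤ H := by
    unfold SCOK.G1
    rw [Subgroup.closure_le]
    rintro g ⟨i, hi, t, ht, rfl | rfl⟩
    · have hi' : i < 6 := hi
      interval_cases i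
      · exact hc1 t
      · exact hc5 46 t (hl46 t ht)
      · exact hc2 t
      · exact hc5 39 t (hl39 t ht)
      · exact hc2 t
      · exact hc1 t
    · have hi' : i < 6 := hi
      interval_cases i
      · exact hc3 t
      · exact hc5 25 t (hl25 t ht)
      · exact hc4 t
      · exact hc5 32 t (hl32 t ht)
      · exact hc4 t
      · exact hc3 t
  refine ⟨⟨a, haG⟩, ⟨b, hbG'⟩, ?_⟩
  have h1 : (Subgroup.closure ({⟨a, haG⟩, ⟨b, hbG'⟩} : Set ↥hsc.G1)).map hsc.G1.subtype = H := by
    rw [MonoidHom.map_closure, hH]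
    congr 1
    ext x
    simp [Set.image_insert_eq]
  rw [eq_top_iff]
  intro g _
  have h3 : (g : GL chevE6.Idx K) ∈ (Subgroup.closure ({⟨a, haG⟩, ⟨b, hbG'⟩} : Set ↥hsc.G1)).map hsc.G1.subtype := by
    rw [h1]
    exact hle g.2
  obtain ⟨g', hg', he⟩ := h3
  have : g' = g := Subtype.ext he
  rwa [this] at hg'

end Cfsg.Agent.Lib.Chev.TwoGen
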