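import Cfsg.Agent.Lib.ChevGen3.F4Col
import Cfsg.Agent.Lib.ChevGen3.Design

/-!
# Two generators for `²F₄`
-/

namespace Cfsg.Agent.Lib.Chev.TwoGen.F4

open Cfsg.Lie Matrix
open Cfsg.Agent.Lib.Chev
open Cfsg.Agent.Lib.Chev.TwF4 (hF Dat bW)

variable {K : Type*} [Field K] {e : ℕ} (d : Dat K e)

/-- the word -/
def w0 : List ℕ := [0, 3, 1, 2, 1, 2]

theorem w0_lt : ∀ i ∈ w0, i < chevF4.rank := by decide

/-- the action on roots -/
noncomputable abbrev wA : ℕ → ℕ := wAct TabF4.X w0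

/-- the monomial element -/
noncomputable def bb : GL chevF4.Idx K := nW hF w0

theorem e_one (h2 : (2 : K) = 0) {a : K} (ha : a * a = 1) : a = 1 := by
  have h3 : (a + 1) * (a + 1) = 0 := by linear_combination ha + (a + 1) * h2
  have h4 : a + 1 = 0 := mul_self_eq_zero.1 h3
  linear_combination h4 - h2

theorem inv2 (h2 : (2 : K) = 0) (r : ℕ) (t : K) : (hF.c.xG r t)⁻¹ = hF.c.xG r t := by
  rw [hF.c.xG_inv]
  congr 1
  linear_combination (-t) * h2

theorem bb_conj (h2 : (2 : K) = 0) {s : ℕ} (hs : s < chevF4.nroots) (t : K) :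
    bb * hF.c.xG s t * bb⁻¹ = hF.c.xG (wA s) t := by
  obtain ⟨-, a, ha, hc⟩ := nW_conj hF (F := K) w0_lt hs
  rw [bb, hc, e_one h2 ha, one_mul]

theorem wA_lt {s : ℕ} (hs : s < chevF4.nroots) : wA s < chevF4.nroots :=
  (nW_conj hF (F := ZMod 2) w0_lt hs).1

theorem wA_iter_lt {s : ℕ} (hs : s < chevF4.nroots) (n : ℕ) : wA^[n] s < chevF4.nroots := by
  induction n with
  | zero => exact hs
  | succ n ih =>
    rw [Function.iterate_succ_apply']
    exact wA_lt ih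

variable {H : Subgroup (GL chevF4.Idx K)}

section
include d

theorem pW_conj {s l : ℕ} (hs : s < chevF4.nroots) (hl : l < chevF4.nroots) (t : K) :
    bb * d.pW s l t * bb⁻¹ = d.pW (wA s) (wA l) t := by
  have e1 : bb * d.pW s l t * bb⁻¹ = (bb * hF.c.xG s (d.f t) * bb⁻¹) * (bb * hF.c.xG l t * bb⁻¹) := by
    unfold Dat.pW
    group
  rw [e1, bb_conj d.h2 hs, bb_conj d.h2 hl]
  rfl

theorem pW_iter (hb : (bb : GL chevF4.Idx K) ∈ H) {s l : ℕ} (hs : s < chevF4.nroots) (hl : l < chevF4.nroots)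
    {t : K} (h : d.pW s l t ∈ H) (n : ℕ) : d.pW (wA^[n] s) (wA^[n] l) t ∈ H := by
  induction n with
  | zero => exact h
  | succ n ih =>
    rw [Function.iterate_succ_apply', Function.iterate_succ_apply', ← pW_conj d (wA_iter_lt hs n) (wA_iter_lt hl n)]
    exact H.mul_mem (H.mul_mem hb ih) (H.inv_mem hb)

theorem bW_conj {a b c E : ℕ} (ha : a < chevF4.nroots) (hb : b < chevF4.nroots) (hc : c < chevF4.nroots) (hE : E < chevF4.nroots) (t u : K) :
    bb * bW d.f d.g a b c E t u * bb⁻¹ = bW d.f d.g (wA a) (wA b) (wA c) (wA E) t u := by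
  have e1 : ∀ p q r v : K, bb * (hF.c.xG a p * (hF.c.xG b q * (hF.c.xG c r * hF.c.xG E v))) * bb⁻¹ =
      (bb * hF.c.xG a p * bb⁻¹) * ((bb * hF.c.xG b q * bb⁻¹) * ((bb * hF.c.xG c r * bb⁻¹) * (bb * hF.c.xG E v * bb⁻¹))) := by
    intro p q r v
    group
  unfold bW
  rw [e1, bb_conj d.h2 ha, bb_conj d.h2 hb, bb_conj d.h2 hc, bb_conj d.h2 hE]

theorem bW_iter (hbb : (bb : GL chevF4.Idx K) ∈ H) {a b c E : ℕ} (ha : a < chevF4.nroots) (hb : b < chevF4.nroots) (hc : c < chevF4.nroots) (hE : E < chevF4.nroots)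
    {t u : K} (h : bW d.f d.g a b c E t u ∈ H) (n : ℕ) : bW d.f d.g (wA^[n] a) (wA^[n] b) (wA^[n] c) (wA^[n] E) t u ∈ H := by
  induction n with
  | zero => exact h
  | succ n ih =>
    rw [Function.iterate_succ_apply', Function.iterate_succ_apply', Function.iterate_succ_apply', Function.iterate_succ_apply',
      ← bW_conj d (wA_iter_lt ha n) (wA_iter_lt hb n) (wA_iter_lt hc n) (wA_iter_lt hE n)]
    exact H.mul_mem (H.mul_mem hbb ih) (H.inv_mem hbb)

end

/-! ### Units -/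

section Units

variable [Fintype K]

/-- the Frobenius on units -/
noncomputable abbrev UU : Kˣ →* Kˣ := Units.map (d.f : K →* K)

theorem sq_inj (h2 : (2 : K) = 0) {x y : K} (h : x ^ 2 = y ^ 2) : x = y := by
  have h3 : (x + y) ^ 2 = 0 := by linear_combination h + (y ^ 2 + x * y) * h2
  have h4 : x + y = 0 := pow_eq_zero_iff (two_ne_zero) |>.1 h3
  linear_combination h4 - y * h2

theorem eq_one_of_U {a : Kˣ} (h : UU d a = a) : a = 1 := by
  have h1 := d.map_map_sq a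
  rw [h, h] at h1
  have h3 : a * a = a * 1 := by rw [mul_one, ← sq, h1]
  exact mul_left_cancel h3

theorem eq_one_of_U_sq {a : Kˣ} (h : (UU d a) ^ 2 = a) : a = 1 := by
  apply eq_one_of_U d
  have h1 := congrArg (UU d) h
  rw [map_pow, d.map_map_sq] at h1
  exact h1.symm

theorem eq_one_of_U_sq' {a : Kˣ} (h : (UU d a) ^ 2 = a ^ 2) : a = 1 := by
  apply eq_one_of_U d
  apply Units.ext
  apply sq_inj d.h2
  have h1 := congrArg Units.val h
  simpa using h1

/-- the map `x ↦ x⁻² (f x)²` -/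
noncomputable def phi : Kˣ →* Kˣ :=
  MonoidHom.mk' (fun x => (x ^ 2)⁻¹ * (UU d x) ^ 2) (by
    intro a b
    simp only [map_mul, mul_pow, mul_inv]
    exact mul_mul_mul_comm _ _ _ _)

theorem phi_inj : Function.Injective (phi d) := by
  rw [injective_iff_map_eq_one]
  intro a h
  apply eq_one_of_U_sq' d
  have h1 : (a ^ 2)⁻¹ * (UU d a) ^ 2 = 1 := h
  rw [inv_mul_eq_one] at h1
  exact h1.symm

theorem phi_pow_eq {z : Kˣ} (hz : ∀ x, x ∈ Subgroup.zpowers z) (a : Kˣ) : ∃ n : ℕ, (phi d z) ^ n = a := by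
  obtain ⟨b, rfl⟩ := Finite.surjective_of_injective (phi_inj d) a
  have h1 : b ∈ Submonoid.powers z := (mem_powers_iff_mem_zpowers).2 (hz b)
  obtain ⟨n, rfl⟩ := h1
  exact ⟨n, by rw [map_pow]⟩

end Units

/-! ### Values of the torus -/

/-- exponents -/
def ex (r : ℕ) : ℤ := 2 * chevF4.cartan 2 r + chevF4.cartan 3 r
/-- exponents -/
def ey (r : ℕ) : ℤ := chevF4.cartan 0 r + 2 * chevF4.cartan 1 r

theorem chi_eq [Fintype K] (a : Kˣ) (r : ℕ) : chiT chevF4 (d.cOf (a, a ^ 2)) r = a ^ ex r * (UU d a) ^ ey r := by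
  unfold chiT
  have e1 : ∏ i : Fin chevF4.rank, d.cOf (a, a ^ 2) i ^ chevF4.cartan i r =
      (d.cOf (a, a ^ 2) TwF4.i0) ^ chevF4.cartan 0 r * (d.cOf (a, a ^ 2) TwF4.i1) ^ chevF4.cartan 1 r *
        (d.cOf (a, a ^ 2) TwF4.i2) ^ chevF4.cartan 2 r * (d.cOf (a, a ^ 2) TwF4.i3) ^ chevF4.cartan 3 r :=
    Fin.prod_univ_four (M := Kˣ) (fun i : Fin 4 => d.cOf (a, a ^ 2) i ^ chevF4.cartan i r)
  rw [e1]
  have e0 : d.cOf (a, a ^ 2) TwF4.i0 = UU d a := rfl
  have e2 : d.cOf (a, a ^ 2) TwF4.i1 = (UU d a) ^ 2 := by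
    show Units.map (d.f : K →* K) (a ^ 2) = _
    rw [map_pow]
  have e3 : d.cOf (a, a ^ 2) TwF4.i2 = a ^ 2 := rfl
  have e4 : d.cOf (a, a ^ 2) TwF4.i3 = a := rfl
  rw [e0, e2, e3, e4, ex, ey, _root_.zpow_add, _root_.zpow_add, _root_.zpow_mul, _root_.zpow_mul]
  simp only [zpow_ofNat]
  calc (UU d a) ^ chevF4.cartan 0 r * ((UU d a) ^ 2) ^ chevF4.cartan 1 r * (a ^ 2) ^ chevF4.cartan 2 r * a ^ chevF4.cartan 3 r
      = (a ^ 2) ^ chevF4.cartan 2 r * a ^ chevF4.cartan 3 r * ((UU d a) ^ chevF4.cartan 0 r * ((UU d a) ^ 2) ^ chevF4.cartan 1 r) := by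
        rw [mul_assoc, mul_comm]


/-! ### The main argument -/

section Main

variable [Fintype K]

theorem tor_pW {c : Fin chevF4.rank → Kˣ} {s l : ℕ} (hs : s < chevF4.nroots) (hl : l < chevF4.nroots)
    (hχ : ((chiT chevF4 c s : Kˣ) : K) = d.f ((chiT chevF4 c l : Kˣ) : K)) (t : K) :
    tor RootF4T.R chevF4 c * d.pW s l t * (tor RootF4T.R chevF4 c)⁻¹ = d.pW s l (((chiT chevF4 c l : Kˣ) : K) * t) := by
  have e1 : tor RootF4T.R chevF4 c * d.pW s l t * (tor RootF4T.R chevF4 c)⁻¹ =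
      (tor RootF4T.R chevF4 c * hF.c.xG s (d.f t) * (tor RootF4T.R chevF4 c)⁻¹) *
        (tor RootF4T.R chevF4 c * hF.c.xG l t * (tor RootF4T.R chevF4 c)⁻¹) := by
    unfold Dat.pW
    group
  rw [e1, hF.tor_conj_xG c hs, hF.tor_conj_xG c hl, hχ]
  unfold Dat.pW
  rw [map_mul]

theorem chi_f (a : Kˣ) {s l : ℕ} {y' : ℤ} (h1 : ey l = 2 * y') (h2 : ex s = y') (h3 : ey s = ex l) :
    ((chiT chevF4 (d.cOf (a, a ^ 2)) s : Kˣ) : K) = d.f ((chiT chevF4 (d.cOf (a, a ^ 2)) l : Kˣ) : K) := by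
  have h4 : chiT chevF4 (d.cOf (a, a ^ 2)) s = UU d (chiT chevF4 (d.cOf (a, a ^ 2)) l) := by
    rw [chi_eq, chi_eq, map_mul, map_zpow, map_zpow, h1, _root_.zpow_mul, zpow_ofNat, d.map_map_sq, h2, h3, mul_comm]
  rw [h4]
  rfl

/-- the pieces of `N₁` -/
theorem W1_eq (w : K) : bW d.f d.g 20 22 19 17 w 0 = hF.c.xG 20 (d.f w) * (hF.c.xG 22 w * hF.c.xG 19 (d.f w * w)) := by
  unfold bW
  rw [map_zero, hF.c.xG_zero, mul_one, add_zero]

theorem W1_inv (w : K) : (bW d.f d.g 20 22 19 17 w 0)⁻¹ = hF.c.xG 19 (d.f w * w) * (hF.c.xG 22 w * hF.c.xG 20 (d.f w)) := by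
  rw [W1_eq, _root_.mul_inv_rev, _root_.mul_inv_rev, inv2 d.h2, inv2 d.h2, inv2 d.h2, _root_.mul_assoc]

theorem W1_div (w w' : K) : bW d.f d.g 20 22 19 17 w 0 * (bW d.f d.g 20 22 19 17 w' 0)⁻¹ =
    bW d.f d.g 20 22 19 17 (w + w') ((d.f w + d.f w') * w') := by
  have h2 := d.h2
  have h2' : ((2 : ℕ) : K) = 0 := by exact_mod_cast h2
  rw [W1_inv, W1_eq]
  have h := id_div h2' (d.f w) w (d.f w') w'
  have e1 : hF.c.xG 20 (d.f w) * (hF.c.xG 22 w * hF.c.xG 19 (d.f w * w)) * (hF.c.xG 19 (d.f w' * w') * (hF.c.xG 22 w' * hF.c.xG 20 (d.f w'))) =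
      hF.c.xG 20 (d.f w) * (hF.c.xG 22 w * (hF.c.xG 19 (d.f w * w) * (hF.c.xG 19 (d.f w' * w') * (hF.c.xG 22 w' * hF.c.xG 20 (d.f w'))))) := by
    simp only [_root_.mul_assoc]
  rw [e1, h]
  unfold bW
  have a1 : d.f (w + w') = d.f w + d.f w' := map_add _ _ _
  have a2 : d.g ((d.f w + d.f w') * w') = w * (d.f w' * d.f w') + w' * (d.f w' * d.f w') := by
    rw [map_mul, map_add, d.g_f, d.g_f, d.g_apply w']
    ring
  rw [a1, a2]
  congr 4
  linear_combination (-(d.f w + d.f w') * w') * h2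

theorem W1_cen (z u u' : K) : bW d.f d.g 20 22 19 17 z u = bW d.f d.g 20 22 19 17 z u' * d.pW 19 17 (d.g (u + u')) := by
  have h2 := d.h2
  have h2' : ((2 : ℕ) : K) = 0 := by exact_mod_cast h2
  have h := id_cen h2' (d.f z) z (d.f z * z + u) (d.g u) (u + u') (d.g (u + u'))
  unfold bW Dat.pW
  rw [h, d.f_g]
  have a1 : d.f z * z + u + (u + u') = d.f z * z + u' := by linear_combination u * h2
  have a2 : d.g u + d.g (u + u') = d.g u' := by
    rw [map_add]
    linear_combination (d.g u) * h2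
  rw [a1, a2]
  simp only [_root_.mul_assoc]

theorem D_mem {H : Subgroup (GL chevF4.Idx K)} (s t : K) (h4 : d.pW 44 47 s ∈ H) (h8 : d.pW 8 2 t ∈ H)
    (h7 : d.pW 7 1 (s * (d.f t * (d.f t * t))) ∈ H) (h10 : d.pW 10 15 (d.f s * (d.f s * (d.f t * (d.f t * t)))) ∈ H)
    (h38 : d.pW 38 43 (d.f s * (d.f s * t)) ∈ H) :
    bW d.f d.g 20 22 19 17 (s * (d.f t * d.f t)) 0 * bW d.f d.g 34 26 36 42 (s * t) 0 ∈ H := by
  have h2 := d.h2
  have h2' : ((2 : ℕ) : K) = 0 := by exact_mod_cast h2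
  have hL := H.mul_mem (H.mul_mem (H.mul_mem h4 h8) (H.inv_mem h4)) (H.inv_mem h8)
  have e1 : d.pW 44 47 s * d.pW 8 2 t * (d.pW 44 47 s)⁻¹ * (d.pW 8 2 t)⁻¹ =
      hF.c.xG 44 (d.f s) * (hF.c.xG 47 s * (hF.c.xG 8 (d.f t) * (hF.c.xG 2 t * (hF.c.xG 47 s * (hF.c.xG 44 (d.f s) * (hF.c.xG 2 t * hF.c.xG 8 (d.f t))))))) := by
    unfold Dat.pW
    rw [_root_.mul_inv_rev, _root_.mul_inv_rev, inv2 h2, inv2 h2, inv2 h2, inv2 h2]
    simp only [_root_.mul_assoc]
  rw [e1, id_D h2'] at hL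
  have hfT : d.f (d.f t) * d.f (d.f t) = t := by
    have := d.hθ t
    rwa [sq] at this
  have hfS : d.f (d.f s) * d.f (d.f s) = s := by
    have := d.hθ s
    rwa [sq] at this
  have a1 : d.f (s * (d.f t * (d.f t * t))) = d.f s * (d.f t * t) := by
    simp only [map_mul]
    linear_combination (d.f s * d.f t) * hfT
  have a2 : d.f (d.f s * (d.f s * (d.f t * (d.f t * t)))) = s * (d.f t * t) := by
    simp only [map_mul]
    linear_combination (d.f t * (d.f (d.f t) * d.f (d.f t))) * hfS + (s * d.f t) * hfT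
  have a3 : d.f (d.f s * (d.f s * t)) = s * d.f t := by
    simp only [map_mul]
    linear_combination (d.f t) * hfS
  have a4 : d.f (s * (d.f t * d.f t)) = d.f s * t := by
    simp only [map_mul]
    linear_combination (d.f s) * hfT
  have a5 : d.f (s * t) = d.f s * d.f t := map_mul _ _ _
  have e2 : bW d.f d.g 20 22 19 17 (s * (d.f t * d.f t)) 0 =
      hF.c.xG 20 (d.f s * t) * (hF.c.xG 22 (s * (d.f t * d.f t)) * hF.c.xG 19 (d.f s * (s * (d.f t * (d.f t * t))))) := by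
    unfold bW
    rw [a4, map_zero, hF.c.xG_zero, mul_one]
    congr 3
    ring
  have e3 : bW d.f d.g 34 26 36 42 (s * t) 0 =
      hF.c.xG 34 (d.f s * d.f t) * (hF.c.xG 26 (s * t) * hF.c.xG 36 (d.f s * (s * (d.f t * t)))) := by
    unfold bW
    rw [a5, map_zero, hF.c.xG_zero, mul_one]
    congr 3
    ring
  have e4 : d.pW 7 1 (s * (d.f t * (d.f t * t))) * d.pW 10 15 (d.f s * (d.f s * (d.f t * (d.f t * t)))) *
      (bW d.f d.g 20 22 19 17 (s * (d.f t * d.f t)) 0 * bW d.f d.g 34 26 36 42 (s * t) 0) * d.pW 38 43 (d.f s * (d.f s * t)) =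
      hF.c.xG 7 (d.f s * (d.f t * t)) * (hF.c.xG 1 (s * (d.f t * (d.f t * t))) * (hF.c.xG 10 (s * (d.f t * t)) * (hF.c.xG 15 (d.f s * (d.f s * (d.f t * (d.f t * t)))) *
        (hF.c.xG 20 (d.f s * t) * (hF.c.xG 22 (s * (d.f t * d.f t)) * (hF.c.xG 19 (d.f s * (s * (d.f t * (d.f t * t)))) *
          (hF.c.xG 34 (d.f s * d.f t) * (hF.c.xG 26 (s * t) * (hF.c.xG 36 (d.f s * (s * (d.f t * t))) *
            (hF.c.xG 38 (s * d.f t) * hF.c.xG 43 (d.f s * (d.f s * t)))))))))))) := by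
    rw [e2, e3]
    unfold Dat.pW
    rw [a1, a2, a3]
    simp only [_root_.mul_assoc]
  rw [← e4] at hL
  have h5 := H.mul_mem (H.mul_mem (H.inv_mem (H.mul_mem h7 h10)) hL) (H.inv_mem h38)
  have e5 : (d.pW 7 1 (s * (d.f t * (d.f t * t))) * d.pW 10 15 (d.f s * (d.f s * (d.f t * (d.f t * t)))))⁻¹ *
      (d.pW 7 1 (s * (d.f t * (d.f t * t))) * d.pW 10 15 (d.f s * (d.f s * (d.f t * (d.f t * t)))) *
      (bW d.f d.g 20 22 19 17 (s * (d.f t * d.f t)) 0 * bW d.f d.g 34 26 36 42 (s * t) 0) * d.pW 38 43 (d.f s * (d.f s * t))) * (d.pW 38 43 (d.f s * (d.f s * t)))⁻¹ =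
      bW d.f d.g 20 22 19 17 (s * (d.f t * d.f t)) 0 * bW d.f d.g 34 26 36 42 (s * t) 0 := by
    group
  rwa [e5] at h5

/-- The main theorem. -/
theorem two_gen_2F4 {m : ℕ} (hm : 1 ≤ m) (hK : Fintype.card K = 2 ^ (2 * m + 1)) :
    ∃ a b : ↥(twistedF4 K (2 ^ m)), Subgroup.closure ({a, b} : Set ↥(twistedF4 K (2 ^ m))) = ⊤ := by
  classical
  obtain ⟨d⟩ := TwF4.exists_dat hK
  have h2 := d.h2
  have h2' : ((2 : ℕ) : K) = 0 := by exact_mod_cast h2
  have hcard8 : 8 ≤ Fintype.card K := by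
    rw [hK]
    calc 8 = 2 ^ 3 := by norm_num
      _ ≤ 2 ^ (2 * m + 1) := Nat.pow_le_pow_right (by norm_num) (by omega)
  obtain ⟨z, hz⟩ := IsCyclic.exists_generator (α := Kˣ)
  have hz1 : z ≠ 1 := by
    rintro rfl
    have h1 : ∀ x : Kˣ, x = 1 := fun x => by
      obtain ⟨k, hk⟩ := Subgroup.mem_zpowers_iff.1 (hz x)
      rw [← hk]
      simp
    have hcard : Fintype.card Kˣ = 1 := Fintype.card_eq_one_iff.2 ⟨1, h1⟩
    rw [Fintype.card_units] at hcard
    omega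
  set c : Fin chevF4.rank → Kˣ := d.cOf (z, z ^ 2) with hc
  set tt : GL chevF4.Idx K := tor RootF4T.R chevF4 c with htt
  set y : GL chevF4.Idx K := hF.c.xG 19 (1 : K) * hF.c.xG 17 (1 : K) with hy
  set P : GL chevF4.Idx K := hF.c.xG 33 (1 : K) * hF.c.xG 24 (1 : K) with hP
  set u : GL chevF4.Idx K := tt * y with hu
  set a : GL chevF4.Idx K := u * P with ha
  have hyinv : y⁻¹ = hF.c.xG 17 (1 : K) * hF.c.xG 19 (1 : K) := by
    rw [hy, _root_.mul_inv_rev, inv2 h2, inv2 h2]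
  have hv : ex 33 = 0 ∧ ey 33 = 0 ∧ ex 24 = 0 ∧ ey 24 = 0 ∧ ex 19 = -1 ∧ ey 19 = 1 ∧ ex 17 = 1 ∧ ey 17 = -2 ∧
      ex 15 = -2 ∧ ey 15 = 2 ∧ ex 10 = 1 ∧ ey 10 = -2 ∧ ex 45 = -2 ∧ ey 45 = 4 ∧ ex 39 = 2 ∧ ey 39 = -2 ∧
      ex 42 = -1 ∧ ey 42 = 2 ∧ ex 36 = 1 ∧ ey 36 = -1 := by decide +kernel
  obtain ⟨v1, v2, v3, v4, v5, v6, v7, v8, v9, v10, v11, v12, v13, v14, v15, v16, v17, v18, v19, v20⟩ := hv
  have χ33 : chiT chevF4 c 33 = 1 := by
    rw [hc, chi_eq, v1, v2]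
    simp
  have χ24 : chiT chevF4 c 24 = 1 := by
    rw [hc, chi_eq, v3, v4]
    simp
  have χ19 : chiT chevF4 c 19 ≠ 1 := by
    intro h
    rw [hc, chi_eq, v5, v6, _root_.zpow_neg_one, zpow_one, inv_mul_eq_one] at h
    exact hz1 (eq_one_of_U d h.symm)
  have χ17 : chiT chevF4 c 17 ≠ 1 := by
    intro h
    rw [hc, chi_eq, v7, v8, zpow_one] at h
    apply hz1 (eq_one_of_U_sq d ?_)
    have h1 : z * ((UU d z) ^ 2)⁻¹ = 1 := by
      rw [← h]
      congr 1
    exact (mul_inv_eq_one.1 h1).symm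
  have hupow : u ^ (Fintype.card K - 1) = 1 :=
    tor_mul_two_pow hF c (by decide +kernel) (by decide +kernel) χ19 χ17
      (commute_of_nil hF (by decide +kernel) (by decide +kernel) (by decide +kernel) (by decide +kernel) (by decide +kernel))
  -- commuting
  have hcomT : Commute tt P := by
    have e1 : ∀ r, r < chevF4.nroots → chiT chevF4 c r = 1 → Commute tt (hF.c.xG r (1 : K)) := by
      intro r hr h
      have h1 := hF.tor_mul_xG c hr (1 : K)
      rw [h, Units.val_one, one_mul] at h1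
      exact h1
    exact (e1 33 (by decide +kernel) χ33).mul_right (e1 24 (by decide +kernel) χ24)
  have hcomY : Commute y P := by
    have h1 := id_yC h2' (1 : K) (1 : K)
    have h3 : y * P * y⁻¹ = P := by
      calc y * P * y⁻¹ = hF.c.xG 19 (1 : K) * (hF.c.xG 17 (1 : K) * (hF.c.xG 33 (1 : K) * (hF.c.xG 24 (1 : K) * (hF.c.xG 17 (1 : K) * hF.c.xG 19 (1 : K))))) := by
            rw [hyinv, hy, hP]
            simp only [_root_.mul_assoc]
        _ = P := h1
    exact (mul_inv_eq_iff_eq_mul.1 h3)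
  have hcomU : Commute u P := hcomT.mul_left hcomY
  have hPP : P * P = 1 := by
    have h1 := id_sq h2' (1 : K) (1 : K)
    rw [hP, _root_.mul_assoc]
    exact h1
  have hodd : ∃ k, Fintype.card K - 1 = 2 * k + 1 := by
    refine ⟨(Fintype.card K - 2) / 2, ?_⟩
    have h3 : 2 ∣ Fintype.card K := by
      rw [hK, pow_succ]
      exact Dvd.intro_left _ rfl
    omega
  have hPpow : P ^ (Fintype.card K - 1) = P := by
    obtain ⟨k, hk⟩ := hodd
    rw [hk, pow_succ, pow_mul, sq, hPP, one_pow, one_mul]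
  set H : Subgroup (GL chevF4.Idx K) := Subgroup.closure ({a, bb} : Set (GL chevF4.Idx K)) with hH
  have haH : a ∈ H := mem_left
  have hbH : (bb : GL chevF4.Idx K) ∈ H := mem_right
  have hPH : P ∈ H := by
    have h1 := H.pow_mem haH (Fintype.card K - 1)
    rw [ha, hcomU.mul_pow, hupow, one_mul, hPpow] at h1
    exact h1
  have huH : u ∈ H := by
    have h1 := H.mul_mem haH (H.inv_mem hPH)
    rwa [ha, mul_inv_cancel_right] at h1
  have hconjU : ∀ X : GL chevF4.Idx K, u * X * u⁻¹ = tt * (y * X * y⁻¹) * tt⁻¹ := by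
    intro X
    rw [hu]
    group
  -- the pairs of type A
  have hP' : d.pW 33 24 (1 : K) ∈ H := by
    unfold Dat.pW
    rw [map_one]
    exact hPH
  have hA1one : d.pW 10 15 (1 : K) ∈ H := by
    have h := pW_iter d hbH (s := 33) (l := 24) (by decide +kernel) (by decide +kernel) hP' 7
    have e1 : wA^[7] 33 = 10 := by decide +kernel
    have e2 : wA^[7] 24 = 15 := by decide +kernel
    rwa [e1, e2] at h
  have hχ15 : chiT chevF4 c 15 = phi d z := by
    rw [hc, chi_eq, v9, v10]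
    show _ = (z ^ 2)⁻¹ * (UU d z) ^ 2
    rw [_root_.zpow_neg]
    rfl
  have hconjA1 : ∀ t : K, u * d.pW 10 15 t * u⁻¹ = d.pW 10 15 (((phi d z : Kˣ) : K) * t) := by
    intro t
    have h1 : y * d.pW 10 15 t * y⁻¹ = d.pW 10 15 t := by
      have h3 := id_yB h2' (d.f t) t
      unfold Dat.pW
      calc y * (hF.c.xG 10 (d.f t) * hF.c.xG 15 t) * y⁻¹ = hF.c.xG 19 (1 : K) * (hF.c.xG 17 (1 : K) * (hF.c.xG 10 (d.f t) * (hF.c.xG 15 t * (hF.c.xG 17 (1 : K) * hF.c.xG 19 (1 : K))))) := by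
            rw [hyinv, hy]
            simp only [_root_.mul_assoc]
        _ = _ := h3
    rw [hconjU, h1, htt, tor_pW d (by decide +kernel) (by decide +kernel) (chi_f d z (by rw [v10]; rfl) v11 (by rw [v12, v9])), hχ15]
  have hA1 : ∀ t : K, d.pW 10 15 t ∈ H := by
    intro t
    by_cases h0 : t = 0
    · rw [h0]
      unfold Dat.pW
      rw [map_zero, hF.c.xG_zero, hF.c.xG_zero, one_mul]
      exact H.one_mem
    · obtain ⟨n, hn⟩ := phi_pow_eq d hz (Units.mk0 t h0)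
      have h1 : t = (((phi d z) ^ n : Kˣ) : K) := by rw [hn, Units.val_mk0]
      rw [h1]
      clear h1 hn
      induction n with
      | zero => simpa using hA1one
      | succ n ih =>
        have h3 := H.mul_mem (H.mul_mem huH ih) (H.inv_mem huH)
        rw [hconjA1] at h3
        convert h3 using 2
        rw [pow_succ, Units.val_mul, mul_comm]
  have hA : ∀ (n : ℕ) (t : K), d.pW (wA^[n] 10) (wA^[n] 15) t ∈ H := fun n t =>
    pW_iter d hbH (by decide +kernel) (by decide +kernel) (hA1 t) n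
  -- the pairs of type C
  have hC3 : ∀ t : K, d.pW 36 42 t ∈ H := by
    intro t
    have hA4 : ∀ t : K, d.pW 39 45 t ∈ H := by
      intro t
      have h := hA 3 t
      have e1 : wA^[3] 10 = 39 := by decide +kernel
      have e2 : wA^[3] 15 = 45 := by decide +kernel
      rwa [e1, e2] at h
    set χ : Kˣ := chiT chevF4 c 42 with hχ
    set v : K := ((χ⁻¹ : Kˣ) : K) * t with hv'
    have h1 : y * d.pW 39 45 v * y⁻¹ = d.pW 36 42 v * d.pW 39 45 v := by
      have h3 := id_yA h2' (d.f v) v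
      rw [hyinv, hy]
      unfold Dat.pW
      calc hF.c.xG 19 (1 : K) * hF.c.xG 17 1 * (hF.c.xG 39 (d.f v) * hF.c.xG 45 v) * (hF.c.xG 17 1 * hF.c.xG 19 1)
          = hF.c.xG 19 1 * (hF.c.xG 17 1 * (hF.c.xG 39 (d.f v) * (hF.c.xG 45 v * (hF.c.xG 17 1 * hF.c.xG 19 1)))) := by
            simp only [_root_.mul_assoc]
        _ = _ := by
            rw [h3]
            simp only [_root_.mul_assoc]
    have h3 := H.mul_mem (H.mul_mem huH (hA4 v)) (H.inv_mem huH)
    rw [hconjU, h1, htt] at h3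
    have e1 : tor RootF4T.R chevF4 c * (d.pW 36 42 v * d.pW 39 45 v) * (tor RootF4T.R chevF4 c)⁻¹ =
        (tor RootF4T.R chevF4 c * d.pW 36 42 v * (tor RootF4T.R chevF4 c)⁻¹) * (tor RootF4T.R chevF4 c * d.pW 39 45 v * (tor RootF4T.R chevF4 c)⁻¹) := by
      group
    rw [e1, tor_pW d (by decide +kernel) (by decide +kernel) (chi_f d z (by rw [v18]; rfl) v19 (by rw [v20, v17])),
      tor_pW d (by decide +kernel) (by decide +kernel) (chi_f d z (by rw [v14]; rfl) v15 (by rw [v16, v13]))] at h3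
    have h5 := H.mul_mem h3 (H.inv_mem (hA4 (((chiT chevF4 c 45 : Kˣ) : K) * v)))
    rw [mul_inv_cancel_right] at h5
    have e2 : ((chiT chevF4 c 42 : Kˣ) : K) * v = t := by
      rw [hv', ← hχ, ← mul_assoc, ← Units.val_mul, mul_inv_cancel, Units.val_one, one_mul]
    rwa [e2] at h5
  have hC : ∀ (n : ℕ) (t : K), d.pW (wA^[n] 36) (wA^[n] 42) t ∈ H := fun n t =>
    pW_iter d hbH (by decide +kernel) (by decide +kernel) (hC3 t) n
  have hC2 : ∀ t : K, d.pW 19 17 t ∈ H := by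
    intro t
    have h := hC 7 t
    have e1 : wA^[7] 36 = 19 := by decide +kernel
    have e2 : wA^[7] 42 = 17 := by decide +kernel
    rwa [e1, e2] at h
  have hC6 : ∀ t : K, d.pW 28 30 t ∈ H := by
    intro t
    have h := hC 3 t
    have e1 : wA^[3] 36 = 28 := by decide +kernel
    have e2 : wA^[3] 42 = 30 := by decide +kernel
    rwa [e1, e2] at h
  have hD : ∀ s t : K, bW d.f d.g 20 22 19 17 (s * (d.f t * d.f t)) 0 * bW d.f d.g 34 26 36 42 (s * t) 0 ∈ H := by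
    intro s t
    apply D_mem
    · have h := hC 1 s
      have e1 : wA^[1] 36 = 44 := by decide +kernel
      have e2 : wA^[1] 42 = 47 := by decide +kernel
      rwa [e1, e2] at h
    · have h := hA 7 t
      have e1 : wA^[7] 10 = 8 := by decide +kernel
      have e2 : wA^[7] 15 = 2 := by decide +kernel
      rwa [e1, e2] at h
    · have h := hC 6 (s * (d.f t * (d.f t * t)))
      have e1 : wA^[6] 36 = 7 := by decide +kernel
      have e2 : wA^[6] 42 = 1 := by decide +kernel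
      rwa [e1, e2] at h
    · exact hA1 _
    · have h := hA 2 (d.f s * (d.f s * t))
      have e1 : wA^[2] 10 = 38 := by decide +kernel
      have e2 : wA^[2] 15 = 43 := by decide +kernel
      rwa [e1, e2] at h
  -- the separation
  have hz0 : (z : K) ≠ 0 := z.ne_zero
  set ρ : K := d.f z * d.f z * (z : K)⁻¹ with hρ
  have hρ1 : ρ + 1 ≠ 0 := by
    intro h0
    have h3 : (d.f z * d.f z : K) = z := by
      have h4 : ρ = 1 := by linear_combination h0 - h2
      rw [hρ] at h4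
      calc (d.f z * d.f z : K) = d.f z * d.f z * (z : K)⁻¹ * z := by
            rw [_root_.mul_assoc, inv_mul_cancel₀ hz0, mul_one]
        _ = z := by rw [h4, one_mul]
    apply hz1
    apply eq_one_of_U_sq d
    apply Units.ext
    simpa [sq] using h3
  have hW1' : ∀ w : K, ∃ u' : K, bW d.f d.g 20 22 19 17 w u' ∈ H := by
    intro w
    set v : K := w * (ρ + 1)⁻¹ with hv'
    have h3 := hD (v * (z : K)⁻¹) z
    have h4 := hD v 1
    have e1 : v * (z : K)⁻¹ * (d.f z * d.f z) = v * ρ := by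
      rw [hρ]
      ring
    have e2 : v * (z : K)⁻¹ * (z : K) = v := by
      rw [_root_.mul_assoc, inv_mul_cancel₀ hz0, mul_one]
    have e3 : v * (d.f 1 * d.f 1) = v := by
      rw [map_one]
      ring
    have e4 : v * 1 = v := mul_one v
    rw [e1, e2] at h3
    rw [e3, e4] at h4
    have h5 := H.mul_mem h3 (H.inv_mem h4)
    have e5 : bW d.f d.g 20 22 19 17 (v * ρ) 0 * bW d.f d.g 34 26 36 42 v 0 * (bW d.f d.g 20 22 19 17 v 0 * bW d.f d.g 34 26 36 42 v 0)⁻¹ =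
        bW d.f d.g 20 22 19 17 (v * ρ) 0 * (bW d.f d.g 20 22 19 17 v 0)⁻¹ := by
      group
    rw [e5, W1_div] at h5
    have e6 : v * ρ + v = w := by
      rw [hv']
      field_simp
    rw [e6] at h5
    exact ⟨_, h5⟩
  have hW1 : ∀ w u' : K, bW d.f d.g 20 22 19 17 w u' ∈ H := by
    intro w u'
    obtain ⟨u'', h⟩ := hW1' w
    rw [W1_cen d w u' u'']
    exact H.mul_mem h (hC2 _)
  have hW5 : ∀ w u' : K, bW d.f d.g 27 25 28 30 w u' ∈ H := by
    intro w u'
    have h := bW_iter d hbH (a := 20) (b := 22) (c := 19) (E := 17) (by decide +kernel) (by decide +kernel) (by decide +kernel) (by decide +kernel) (hW1 w u') 4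
    have e1 : wA^[4] 20 = 27 := by decide +kernel
    have e2 : wA^[4] 22 = 25 := by decide +kernel
    have e3 : wA^[4] 19 = 28 := by decide +kernel
    have e4 : wA^[4] 17 = 30 := by decide +kernel
    rwa [e1, e2, e3, e4] at h
  have hA2 : ∀ t : K, d.pW 33 24 t ∈ H := by
    intro t
    have h := hA 1 t
    have e1 : wA^[1] 10 = 33 := by decide +kernel
    have e2 : wA^[1] 15 = 24 := by decide +kernel
    rwa [e1, e2] at h
  have hA6 : ∀ t : K, d.pW 14 23 t ∈ H := by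
    intro t
    have h := hA 5 t
    have e1 : wA^[5] 10 = 14 := by decide +kernel
    have e2 : wA^[5] 15 = 23 := by decide +kernel
    rwa [e1, e2] at h
  -- the generators
  have hle : twistedF4 K (2 ^ m) ≤ H := by
    unfold twistedF4 ChevalleyDatum.genSubgroup
    rw [Subgroup.closure_le]
    rintro g ⟨w, hw, hg⟩
    have hg' := hF.c.eq_wordG hg
    show g ∈ H
    rw [hg']
    rcases hw with ⟨t, rfl | rfl⟩ | ⟨t, u', rfl | rfl⟩
    · have := hA2 t
      rwa [← d.pW_word] at this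
    · have := hA6 t
      rwa [← d.pW_word] at this
    · have := hW5 t u'
      rwa [← d.bW_word] at this
    · have := hW1 t u'
      rwa [← d.bW_word] at this
  -- the generators are in the group
  have htG : tt ∈ twistedF4 K (2 ^ m) := d.hmem (d.cOf_fixed _)
  have hyG : y ∈ twistedF4 K (2 ^ m) := by
    have h := hF.wordG_mem_genSubgroup (F := K) (S := f4Words K (2 ^ m)) (w := b2ClassWord (2 ^ m) 20 22 19 17 0 1) (Or.inr ⟨0, 1, Or.inr rfl⟩)
    rw [d.bW_word] at h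
    have e1 : bW d.f d.g 20 22 19 17 (0 : K) 1 = y := by
      unfold bW
      rw [map_zero, map_one, hF.c.xG_zero, hF.c.xG_zero, one_mul, one_mul, mul_zero, zero_add]
    rwa [e1] at h
  have hPG : P ∈ twistedF4 K (2 ^ m) := by
    have h := hF.wordG_mem_genSubgroup (F := K) (S := f4Words K (2 ^ m)) (w := f4PairWord (2 ^ m) 33 24 1) (Or.inl ⟨1, Or.inl rfl⟩)
    rw [d.pW_word] at h
    have e1 : d.pW 33 24 (1 : K) = P := by
      unfold Dat.pW
      rw [map_one]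
    rwa [e1] at h
  have haG : a ∈ twistedF4 K (2 ^ m) := Subgroup.mul_mem _ (Subgroup.mul_mem _ htG hyG) hPG
  have hbG : (bb : GL chevF4.Idx K) ∈ twistedF4 K (2 ^ m) := by
    have e1 : (bb : GL chevF4.Idx K) = hF.wordN [0, 3] * hF.wordN [1, 2, 1, 2] := by
      simp [bb, nW, w0, Full.wordN, _root_.mul_assoc]
    rw [e1]
    exact Subgroup.mul_mem _ (TwF4.wordN_block h2' d.he (Or.inl rfl)) (TwF4.wordN_block h2' d.he (Or.inr rfl))
  refine ⟨⟨a, haG⟩, ⟨bb, hbG⟩, ?_⟩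
  have h1 : (Subgroup.closure ({⟨a, haG⟩, ⟨bb, hbG⟩} : Set ↥(twistedF4 K (2 ^ m)))).map (twistedF4 K (2 ^ m)).subtype = H := by
    rw [MonoidHom.map_closure, hH]
    congr 1
    ext x
    simp [Set.image_insert_eq]
  rw [eq_top_iff]
  intro g _
  have h3 : (g : GL chevF4.Idx K) ∈ (Subgroup.closure ({⟨a, haG⟩, ⟨bb, hbG⟩} : Set ↥(twistedF4 K (2 ^ m)))).map (twistedF4 K (2 ^ m)).subtype := by
    rw [h1]
    exact hle g.2
  obtain ⟨g', hg', he⟩ := h3
  have : g' = g := Subtype.ext he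
  rwa [this] at hg'

end Main

end Cfsg.Agent.Lib.Chev.TwoGen.F4
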